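import Cfsg.Agent.Chars2.InvolutionClasses.Split
import Cfsg.Agent.Chev.Poincare

/-!
The centraliser of a sign element of the torus through the Bruhat decomposition.
-/

set_option autoImplicit false
set_option linter.unusedSectionVars false

namespace Cfsg.Agent.Chars2.InvolutionClasses

open Cfsg.Lie Cfsg.Agent.Chev Cfsg.Agent.Chars2.Homocyclic

variable {D : ChevalleyDatum} (C : Cert.{0} D)
include C

variable {F : Type} [Field F]

/-- Parities carried along a word. -/
theorem IsSgn.conj_word {t : GL D.Idx F} {a a' : Fin D.rank → ZMod 2} (h : IsSgn C t a) (L : List (Fin D.rank))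
    (ha : ∀ r < D.nroots, par C a' (act D (L.map Fin.val) r) = par C a r) :
    IsSgn C (C.nWordElt F (L.map Fin.val) * t * (C.nWordElt F (L.map Fin.val))⁻¹) a' := by
  set n := C.nWordElt F (L.map Fin.val) with hn
  have hd := C.monomial_conj_diagonal (C.nWordElt_mem (F := F) (C.fin_word_lt L)) h.1
  refine ⟨hd, ?_⟩
  obtain ⟨χ, hχ, -, e⟩ := C.diagonal_char hd
  rw [e]
  refine dMat_congr fun s hs => ?_
  have hr : act D (L.reverse.map Fin.val) s < D.nroots := C.act_lt (C.fin_word_lt _) hs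
  set r := act D (L.reverse.map Fin.val) s with hrdef
  have hrs : act D (L.map Fin.val) r = s := by
    rw [hrdef, List.map_reverse]; exact act_reverse_right C (C.fin_word_lt L) hs
  obtain ⟨c, hc, ec⟩ := C.nWordElt_conj_xu (F := F) (C.fin_word_lt L) hr
  rw [hrs] at ec
  have h1 : n * t * n⁻¹ * C.xu s c * (n * t * n⁻¹)⁻¹ = C.xu s (χ s * c) := by
    revert e
    generalize n * t * n⁻¹ = y
    intro e
    rw [show y * C.xu s c = C.xu s (χ s * c) * y from
      Units.ext (by rw [Units.val_mul, Units.val_mul, e, C.coe_xu, C.coe_xu, C.dMat_conj hχ hs c]),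
      mul_inv_cancel_right]
  have h2 : n * t * n⁻¹ * C.xu s c * (n * t * n⁻¹)⁻¹ = C.xu s (sg F (par C a r) * c) := by
    rw [show C.xu s c = n * C.xu r 1 * n⁻¹ by rw [ec, mul_one]]
    calc _ = n * (t * C.xu r 1 * t⁻¹) * n⁻¹ := by group
      _ = _ := by rw [h.conj C r hr 1, ec, mul_comm (sg F _) c]; rfl
  have h3 := mul_right_cancel₀ hc (xu_inj C hs (h1.symm.trans h2))
  rw [h3, ← ha r hr, hrs]

/-- The Weyl group elements fixing a parity. -/
noncomputable def fixW (a : Fin D.rank → ZMod 2) : Finset (Equiv.Perm (Fin D.nroots)) := by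
  classical
  exact Finset.univ.filter fun σ => σ ∈ C.WSub (List.range D.rank) ∧ ∀ r : Fin D.nroots, par C a (σ r) = par C a r

theorem mem_fixW {a : Fin D.rank → ZMod 2} {σ : Equiv.Perm (Fin D.nroots)} :
    σ ∈ fixW C a ↔ σ ∈ C.WSub (List.range D.rank) ∧ ∀ r : Fin D.nroots, par C a (σ r) = par C a r := by
  simp [fixW]

/-- Roots of even parity of a closed set form a closed set. -/
theorem closedSet_par {P : ℕ → Prop} (hP : ClosedSet D P) (a : Fin D.rank → ZMod 2) :
    ClosedSet D (fun r => P r ∧ par C a r = 0) := by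
  refine ⟨fun r hr => hP.pos r hr.1, fun r s hr hs c hc => ⟨hP.closed r s hr.1 hs.1 c hc, ?_⟩⟩
  obtain ⟨-, -, h3⟩ := C.commTerms_coef (hP.pos r hr.1).1 (hP.pos s hs.1).1 c hc
  have : par C a c.1 = (c.2.2.1 : ZMod 2) * par C a r + (c.2.2.2 : ZMod 2) * par C a s := by
    simp only [par, Finset.mul_sum, ← Finset.sum_add_distrib]
    refine Finset.sum_congr rfl fun j _ => ?_
    rw [h3 j j.isLt]; push_cast; ring
  rw [this, hr.2, hs.2, mul_zero, mul_zero, add_zero]

variable [Fintype F]

/-- The part of a closed unipotent group centralised by a sign element. -/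
theorem mem_span_par (h2 : (2 : F) ≠ 0) {t : GL D.Idx F} {a : Fin D.rank → ZMod 2} (h : IsSgn C t a)
    {P : ℕ → Prop} [DecidablePred P] (hP : ClosedSet D P) {g : GL D.Idx F} (hg : g ∈ spanGroup D F P)
    (hc : Commute t g) : g ∈ spanGroup D F (fun r => P r ∧ par C a r = 0) := by
  obtain ⟨f, hf, rfl⟩ := C.exists_prodU hP hg
  obtain ⟨χ, hχ, -, e⟩ := C.diagonal_char h.1
  have h1 := diag_conj_prodU C hχ e f
  rw [hc.eq, mul_inv_cancel_right] at h1
  refine C.prodU_mem f fun r hr hne => ⟨hf r hne, ?_⟩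
  have h3 : f r = χ r * f r := C.prodU_inj h1 r hr
  rw [dMat_entry e hr.1 |>.symm, dMat_entry h.2 hr.1] at h3
  rcases zmod2_cases (par C a r) with h0 | h0
  · exact h0
  · rw [h0, sg_one] at h3
    exact absurd (mul_eq_zero.mp (show (2 : F) * f r = 0 by linear_combination h3)) (by simp [h2, hne])

/-- Commutation with a centralised root group. -/
theorem commute_span_par {t : GL D.Idx F} {a : Fin D.rank → ZMod 2} (h : IsSgn C t a) {P : ℕ → Prop}
    (hP : ∀ r, P r → r < D.nroots) {g : GL D.Idx F} (hg : g ∈ spanGroup D F (fun r => P r ∧ par C a r = 0)) :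
    Commute t g := by
  have hle : spanGroup D F (fun r => P r ∧ par C a r = 0) ≤ Subgroup.centralizer {t} := C.span_le fun r hr x => by
    rw [Subgroup.mem_centralizer_iff]
    rintro _ rfl
    have h1 := h.conj C r (hP r hr.1) x
    rw [if_pos hr.2] at h1
    exact mul_inv_eq_iff_eq_mul.mp h1
  exact Subgroup.mem_centralizer_iff.mp (hle hg) t rfl

/-- The order of the centraliser of a sign element. -/
theorem card_cent {M : CoxeterMatrix (Fin D.rank)} (hM : CoxOK D M) (h2 : (2 : F) ≠ 0) {t : GL D.Idx F}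
    {a : Fin D.rank → ZMod 2} (h : IsSgn C t a) :
    Nat.card {g : GL D.Idx F // g ∈ D.group F ∧ Commute t g} =
      Nat.card (D.diagonalSubgroup F) *
        Fintype.card F ^ ((Finset.univ : Finset (Fin D.nroots)).filter fun r : Fin D.nroots =>
          D.IsPosRoot r ∧ par C a r = 0).card *
        ∑ σ ∈ fixW C a, Fintype.card F ^ ((permInv D σ).filter fun r : Fin D.nroots => par C a r = 0).card := by
  classical
  have hW : ∀ σ : ↥(fixW C a), ∃ L : List (Fin D.rank), (σ : Equiv.Perm (Fin D.nroots)) = (L.map C.reflPerm).prod :=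
    fun σ => by
      obtain ⟨L, -, e⟩ := C.wsub_exists_word ((mem_fixW C).mp σ.2).1
      exact ⟨L, e⟩
  choose Lw hLw using hW
  let nn : ↥(fixW C a) → GL D.Idx F := fun σ => C.nWordElt F ((Lw σ).map Fin.val)
  have hnn : ∀ σ, nn σ ∈ D.monomialSubgroup F := fun σ => C.nWordElt_mem (C.fin_word_lt _)
  have hnc : ∀ σ, Commute t (nn σ) := by
    intro σ
    have hfix : ∀ r < D.nroots, par C a (act D ((Lw σ).map Fin.val) r) = par C a r := fun r hr => by
      have := ((mem_fixW C).mp σ.2).2 ⟨r, hr⟩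
      rwa [hLw σ, C.reflPerm_prod] at this
    have h1 := (h.conj_word C (Lw σ) hfix).unique C h
    exact (mul_inv_eq_iff_eq_mul.mp h1).symm
  let Pu : ℕ → Prop := fun r => D.IsPosRoot r ∧ par C a r = 0
  let Pv : ↥(fixW C a) → ℕ → Prop := fun σ r => Inverts D F (nn σ) r ∧ par C a r = 0
  have hPu : ClosedSet D Pu := closedSet_par C C.closedSet_pos a
  have hPv : ∀ σ, ClosedSet D (Pv σ) := fun σ => closedSet_par C (C.closedSet_inverts _) a
  have huU : spanGroup D F Pu ≤ D.posUnipotent F := C.span_mono fun r hr => hr.1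
  let f : (Σ σ : ↥(fixW C a), (↥(spanGroup D F Pu) × ↥(D.diagonalSubgroup F)) × ↥(spanGroup D F (Pv σ))) →
      {g : GL D.Idx F // g ∈ D.group F ∧ Commute t g} := fun p =>
    ⟨p.2.1.1 * p.2.1.2 * nn p.1 * p.2.2,
      mul_mem (mul_mem (mul_mem (C.span_le_group _ p.2.1.1.2) (C.diagonal_le_group p.2.1.2.2))
        (C.monomial_le_group (hnn _))) (C.span_le_group _ p.2.2.2),
      (((commute_span_par C h (fun r hr => hr.1) p.2.1.1.2).mul_right (C.diagonal_comm h.1 p.2.1.2.2)).mul_right
        (hnc _)).mul_right (commute_span_par C h (fun r hr => hr.1.1) p.2.2.2)⟩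
  have hv : ∀ σ, spanGroup D F (Pv σ) ≤ spanGroup D F (Inverts D F (nn σ)) := fun σ => C.span_mono fun r hr => hr.1
  have hf : Function.Bijective f := by
    constructor
    · rintro ⟨σ, ⟨u, d⟩, v⟩ ⟨σ', ⟨u', d'⟩, v'⟩ e
      have e' : (u : GL D.Idx F) * d * nn σ * v = u' * d' * nn σ' * v' := congrArg Subtype.val e
      have hb : ∀ (x : ↥(spanGroup D F Pu)) (y : ↥(D.diagonalSubgroup F)),
          (x : GL D.Idx F) * y ∈ D.borelSubgroup F := fun x y =>
        mul_mem (C.pos_le_borel (huU x.2)) (C.diagonal_le_borel y.2)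
      have hcell : InCell D F (nn σ) (nn σ') := by
        refine ⟨((u' : GL D.Idx F) * d')⁻¹ * (u * d), mul_mem (inv_mem (hb u' d')) (hb u d),
          (v : GL D.Idx F) * (v' : GL D.Idx F)⁻¹,
          mul_mem (C.pos_le_borel (C.span_mono (fun r hr => hr.1) (hv σ v.2)))
            (inv_mem (C.pos_le_borel (C.span_mono (fun r hr => hr.1) (hv σ' v'.2)))), ?_⟩
        calc nn σ' = ((u' : GL D.Idx F) * d')⁻¹ * ((u' : GL D.Idx F) * d' * nn σ' * v') * (v' : GL D.Idx F)⁻¹ := by group
          _ = _ := by rw [← e']; group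
      have hH := C.inCell_unique hM (hnn σ) (hnn σ') hcell
      have hσ : σ = σ' := Subtype.ext (by rw [hLw σ, hLw σ']; exact C.perm_eq_of_diagonal hH)
      subst hσ
      obtain ⟨e1, e2, e3⟩ := canon_unique C (huU u.2) (huU u'.2) d.2 d'.2 (hv σ v.2) (hv σ v'.2) e'
      rw [Subtype.ext e1, Subtype.ext e2, Subtype.ext e3]
    · rintro ⟨g, hg, hgc⟩
      obtain ⟨L, ua, hua, d, hd, uu, huu, eg⟩ := exists_canon C hM hg
      set n := C.nWordElt F (L.map Fin.val) with hn
      have hnN : n ∈ D.monomialSubgroup F := C.nWordElt_mem (C.fin_word_lt L)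
      have h1 : t * ua * t⁻¹ ∈ D.posUnipotent F :=
        (Subgroup.mem_normalizer_iff.mp (C.posUnipotent_normalised h.1) ua).mp hua
      have h3 : t * uu * t⁻¹ ∈ spanGroup D F (Inverts D F n) :=
        (Subgroup.mem_normalizer_iff.mp (C.diag_normalises (Inverts D F n) (fun x hx => hx.1.1) h.1) uu).mp huu
      have hnc' : n * t⁻¹ * n⁻¹ ∈ D.diagonalSubgroup F := C.monomial_conj_diagonal hnN (inv_mem h.1)
      have e1 : t * ua * t⁻¹ * (t * d * (n * t⁻¹ * n⁻¹)) * n * (t * uu * t⁻¹) = ua * d * n * uu := by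
        calc _ = t * (ua * d * n * uu) * t⁻¹ := by group
          _ = t * g * t⁻¹ := by rw [← eg]
          _ = g := by rw [hgc.eq, mul_inv_cancel_right]
          _ = _ := eg
      obtain ⟨r1, r2, r3⟩ := canon_unique C h1 hua (mul_mem (mul_mem h.1 hd) hnc') hd h3 huu e1
      have cua : Commute t ua := mul_inv_eq_iff_eq_mul.mp r1
      have cuu : Commute t uu := mul_inv_eq_iff_eq_mul.mp r3
      have cn : Commute t n := by
        rw [C.diagonal_comm h.1 hd, mul_assoc d t, mul_eq_left] at r2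
        have : n * t⁻¹ * n⁻¹ = t⁻¹ := eq_inv_of_mul_eq_one_right r2
        have h4 := congrArg Inv.inv this
        rw [← conj_inv, inv_inv] at h4
        exact (mul_inv_eq_iff_eq_mul.mp h4).symm
      have hcd : Commute t (1 * n) := by rwa [one_mul]
      have hfix := par_of_commute C (RingHom.id F) (fun _ => rfl) h2 hM t a (h.conj C) L (one_mem _) hcd
      have hσ : (L.map C.reflPerm).prod ∈ fixW C a := (mem_fixW C).mpr
        ⟨Subgroup.list_prod_mem _ fun x hx => by
          obtain ⟨i, -, rfl⟩ := List.mem_map.mp hx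
          exact C.reflPerm_mem (List.mem_range.mpr i.isLt), fun r => by
          rw [C.reflPerm_prod]; exact hfix r r.isLt⟩
      set σ : ↥(fixW C a) := ⟨_, hσ⟩
      set δ := (nn σ)⁻¹ * n with hδdef
      have hδ : δ ∈ D.diagonalSubgroup F := C.nWordElt_congr (F := F) hM (hLw σ).symm
      have hd' : d * (nn σ * δ * (nn σ)⁻¹) ∈ D.diagonalSubgroup F :=
        mul_mem hd (C.monomial_conj_diagonal (hnn σ) hδ)
      have huu' : uu ∈ spanGroup D F (Inverts D F (nn σ)) := C.span_mono (fun r hr => by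
        have e : n = nn σ * δ := by rw [hδdef, mul_inv_cancel_left]
        rw [e] at hr
        exact (C.inverts_mul_diagonal hδ r).mp hr) huu
      refine ⟨⟨σ, ⟨⟨ua, mem_span_par C h2 h C.closedSet_pos hua cua⟩, ⟨_, hd'⟩⟩,
        ⟨uu, mem_span_par C h2 h (C.closedSet_inverts _) huu' cuu⟩⟩, Subtype.ext ?_⟩
      show ua * (d * (nn σ * δ * (nn σ)⁻¹)) * nn σ * uu = g
      rw [eg, hδdef]; group
  rw [← Nat.card_congr (Equiv.ofBijective f hf), Nat.card_sigma,
    ← Finset.sum_coe_sort (fixW C a) (fun σ => Fintype.card F ^ ((permInv D σ).filter fun r : Fin D.nroots => par C a r = 0).card),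
    Finset.mul_sum]
  refine Finset.sum_congr rfl fun σ _ => ?_
  rw [Nat.card_prod, Nat.card_prod, C.natCard_span hPu, C.natCard_span (hPv σ),
    mul_comm (Fintype.card F ^ _) (Nat.card _)]
  congr 2
  refine congrArg Finset.card ?_
  ext r
  simp only [Finset.mem_filter, Finset.mem_univ, true_and, Pv, nn]
  rw [C.inverts_nWordElt, ← hLw σ]

omit [Fintype F]

/-- Inversions of a product along a parabolic subgroup, as sets. -/
theorem permInv_mul_eq {J K : List ℕ} {u v : Equiv.Perm (Fin D.nroots)} (hu : u ∈ C.WSub J)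
    (hv : v ∈ C.WSub K)
    (humin : ∀ k : Fin D.rank, (k : ℕ) ∈ K → D.IsPosRoot (u ⟨D.simple k, C.simple_lt k k.isLt⟩)) :
    permInv D (u * v) = permInv D v ∪ (permInv D u).map v.symm.toEmbedding ∧
      Disjoint (permInv D v) ((permInv D u).map v.symm.toEmbedding) ∧
      ∀ r ∈ permInv D v, D.InRootSub {i | i ∈ K} r := by
  classical
  have hK : ∀ r ∈ permInv D v, D.InRootSub {i | i ∈ K} r := fun r hr => by
    obtain ⟨hp, hn⟩ := mem_permInv.mp hr
    by_contra hK
    exact C.not_pos_and_neg (C.wsub_outside hv hp hK).1 hn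
  have hdis : Disjoint (permInv D v) ((permInv D u).map v.symm.toEmbedding) := by
    rw [Finset.disjoint_left]
    intro r hr hr'
    obtain ⟨s, hs, rfl⟩ := Finset.mem_map.mp hr'
    have h1 := (mem_permInv.mp hr).2
    rw [Equiv.coe_toEmbedding, Equiv.apply_symm_apply] at h1
    exact C.not_pos_and_neg (mem_permInv.mp hs).1 h1
  have hpresPos : ∀ r : Fin D.nroots, D.IsPosRoot r → D.InRootSub {i | i ∈ K} r → D.IsPosRoot (u r) := by
    intro r hr hK
    rw [C.pos_iff _ (Fin.is_lt _)]
    intro k hk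
    rw [C.wsub_coef hu r k hk]
    refine Finset.sum_nonneg fun j _ => ?_
    by_cases hj : (j : ℕ) ∈ K
    · exact mul_nonneg ((C.pos_iff r r.isLt).mp hr j j.isLt) ((C.pos_iff _ (Fin.is_lt _)).mp (humin j hj) k hk)
    · rw [(C.inRootSub_iff.mp hK).2 j j.isLt hj, zero_mul]
  refine ⟨Finset.eq_of_subset_of_card_le (fun r hr => ?_) ?_, hdis, hK⟩
  · obtain ⟨hp, hn⟩ := mem_permInv.mp hr
    rw [Equiv.Perm.mul_apply] at hn
    rw [Finset.mem_union]
    rcases C.posRoot_or_negRoot (v r).isLt with h | h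
    · exact Or.inr (Finset.mem_map.mpr ⟨v r, mem_permInv.mpr ⟨h, hn⟩, v.symm_apply_apply r⟩)
    · exact Or.inl (mem_permInv.mpr ⟨hp, h⟩)
  · rw [Finset.card_union_of_disjoint hdis, Finset.card_map, C.permInv_mul_card hu hv humin, add_comm]

/-- The fixed Weyl group elements through coset representatives of a parabolic subgroup. -/
theorem fix_sum {M : CoxeterMatrix (Fin D.rank)} (hM : CoxOK D M) (a : Fin D.rank → ZMod 2) {K : List ℕ}
    (hKlt : ∀ k ∈ K, k < D.rank) (hK : ∀ k : Fin D.rank, (k : ℕ) ∈ K → a k = 0) {m N : ℕ}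
    (u : Fin m → Equiv.Perm (Fin D.nroots)) (d : Fin m → ℕ) (hmem : ∀ i, u i ∈ fixW C a)
    (hmin : ∀ i, ∀ k : Fin D.rank, (k : ℕ) ∈ K → D.IsPosRoot (u i ⟨D.simple k, C.simple_lt k k.isLt⟩))
    (hinj : Function.Injective u) (hd : ∀ i, ((permInv D (u i)).filter fun r : Fin D.nroots => par C a r = 0).card = d i)
    (Q : Fin N → Equiv.Perm (Fin D.nroots)) (hQ : ∀ j, Q j ∈ C.WSub (List.range D.rank))
    (hQinj : Function.Injective fun j (k : Fin D.rank) => par C a (Q j ⟨D.simple k, C.simple_lt k k.isLt⟩))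
    (hN : 0 < N) (hW : C.wPoly (List.range D.rank) 1 = N * (m * C.wPoly K 1)) (q : ℕ) :
    ∑ σ ∈ fixW C a, q ^ ((permInv D σ).filter fun r : Fin D.nroots => par C a r = 0).card =
      (∑ i, q ^ d i) * C.wPoly K q := by
  classical
  have hKsub : ∀ r : Fin D.nroots, D.InRootSub {i | i ∈ K} r → par C a r = 0 := fun r hr => by
    refine Finset.sum_eq_zero fun i _ => ?_
    by_cases hi : (i : ℕ) ∈ K
    · rw [hK i hi, mul_zero]
    · rw [(C.inRootSub_iff.mp hr).2 i i.isLt hi, Int.cast_zero, zero_mul]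
  have hKfix : ∀ v ∈ C.WSub K, ∀ r : Fin D.nroots, par C a (v r) = par C a r := by
    intro v hv
    induction hv using Subgroup.closure_induction with
    | mem x hx =>
      obtain ⟨i, hi, rfl⟩ := hx
      intro r
      rw [C.reflPerm_apply, par, par]
      refine Finset.sum_congr rfl fun j _ => ?_
      rw [C.coef_refl i i.isLt r r.isLt j j.isLt]
      by_cases hji : (j : ℕ) = i
      · rw [hK j (hji ▸ hi), mul_zero, mul_zero]
      · rw [if_neg hji, sub_zero]
    | one => simp
    | mul x y _ _ hx hy => intro r; rw [Equiv.Perm.mul_apply, hx, hy]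
    | inv x _ hx =>
      intro r
      conv_rhs => rw [← x.apply_symm_apply r, hx]
      rfl
  have hKJ : ∀ i ∈ K, i ∈ List.range D.rank := fun i hi => List.mem_range.mpr (hKlt i hi)
  let WK := Finset.univ.filter fun v : Equiv.Perm (Fin D.nroots) => v ∈ C.WSub K
  let g : Fin m × Equiv.Perm (Fin D.nroots) → Equiv.Perm (Fin D.nroots) := fun p => u p.1 * p.2
  have hginj : Set.InjOn g ↑((Finset.univ : Finset (Fin m)) ×ˢ WK) := by
    rintro ⟨i, v⟩ hp ⟨i', v'⟩ hp' e
    simp only [Finset.mem_coe, Finset.mem_product, Finset.mem_univ, true_and, WK, Finset.mem_filter] at hp hp'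
    have e' : u i' = u i * (v * v'⁻¹) := by
      rw [← mul_assoc, show u i * v = u i' * v' from e, mul_inv_cancel_right]
    have hw := C.minimal_unique hM ((mem_fixW C).mp (hmem i)).1 ((mem_fixW C).mp (hmem i')).1
      (mul_mem hp (inv_mem hp')) (hmin i) (hmin i') e'
    rw [hw, mul_one] at e'
    obtain rfl := hinj e'
    exact congrArg (Prod.mk _) (mul_inv_eq_one.mp hw)
  have hcardK : ∀ J, C.wPoly J 1 = (Finset.univ.filter fun v : Equiv.Perm (Fin D.nroots) => v ∈ C.WSub J).card := fun J => by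
    simp [Cert.wPoly]
  have hsub : (((Finset.univ : Finset (Fin m)) ×ˢ WK).image g) ⊆ fixW C a := by
    intro x hx
    obtain ⟨⟨i, v⟩, hp, rfl⟩ := Finset.mem_image.mp hx
    simp only [Finset.mem_product, Finset.mem_univ, true_and, WK, Finset.mem_filter] at hp
    refine (mem_fixW C).mpr ⟨mul_mem ((mem_fixW C).mp (hmem i)).1 (C.WSub_mono hKJ hp), fun r => ?_⟩
    rw [Equiv.Perm.mul_apply, ((mem_fixW C).mp (hmem i)).2, hKfix v hp]
  -- counting
  have hupper : N * (fixW C a).card ≤ C.wPoly (List.range D.rank) 1 := by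
    rw [hcardK, ← Fintype.card_fin N, ← Finset.card_univ, ← Finset.card_product]
    refine Finset.card_le_card_of_injOn (fun p => (Q p.1)⁻¹ * p.2) (fun p hp => ?_) ?_
    · obtain ⟨-, hp2⟩ := Finset.mem_product.mp (Finset.mem_coe.mp hp)
      exact Finset.mem_coe.mpr (Finset.mem_filter.mpr
        ⟨Finset.mem_univ _, mul_mem (inv_mem (hQ _)) ((mem_fixW C).mp hp2).1⟩)
    · rintro ⟨j, σ⟩ hp ⟨j', σ'⟩ hp' e
      have hσ := ((mem_fixW C).mp (Finset.mem_product.mp (Finset.mem_coe.mp hp)).2).2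
      have hσ' := ((mem_fixW C).mp (Finset.mem_product.mp (Finset.mem_coe.mp hp')).2).2
      have key : ∀ (τ : Equiv.Perm (Fin D.nroots)), (∀ r : Fin D.nroots, par C a (τ r) = par C a r) →
          ∀ (j : Fin N) (r : Fin D.nroots), par C a (((Q j)⁻¹ * τ)⁻¹ r) = par C a (Q j r) := fun τ hτ j r => by
        rw [_root_.mul_inv_rev, inv_inv, Equiv.Perm.mul_apply]
        conv_rhs => rw [← τ.apply_symm_apply (Q j r), hτ]
        rfl
      have hj : j = j' := hQinj (funext fun k => by
        show par C a (Q j _) = par C a (Q j' _)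
        rw [← key σ hσ j, ← key σ' hσ' j', show (Q j)⁻¹ * σ = (Q j')⁻¹ * σ' from e])
      subst hj
      exact congrArg (Prod.mk _) (mul_left_cancel (show (Q j)⁻¹ * σ = (Q j)⁻¹ * σ' from e))
  have heq : (((Finset.univ : Finset (Fin m)) ×ˢ WK).image g) = fixW C a := by
    refine Finset.eq_of_subset_of_card_le hsub ?_
    rw [Finset.card_image_of_injOn hginj, Finset.card_product, Finset.card_univ, Fintype.card_fin, ← hcardK]
    rw [hW] at hupper
    exact Nat.le_of_mul_le_mul_left hupper hN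
  rw [← heq, Finset.sum_image hginj, Finset.sum_product, Cert.wPoly, Finset.sum_mul_sum]
  refine Finset.sum_congr rfl fun i _ => Finset.sum_congr rfl fun v hv => ?_
  have hv' := (Finset.mem_filter.mp hv).2
  obtain ⟨e, hdis, hin⟩ := permInv_mul_eq C ((mem_fixW C).mp (hmem i)).1 hv' (hmin i)
  rw [← pow_add, e, Finset.filter_union, Finset.card_union_of_disjoint
    (Finset.disjoint_filter_filter hdis), Finset.filter_true_of_mem fun r hr => hKsub r (hin r hr),
    Finset.filter_map, Finset.card_map, ← hd i, add_comm]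
  congr 3
  refine Finset.filter_congr fun r _ => ?_
  simp only [Function.comp_apply, Equiv.coe_toEmbedding]
  have := hKfix v hv' (v.symm r)
  rw [v.apply_symm_apply] at this
  rw [this]

end Cfsg.Agent.Chars2.InvolutionClasses
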