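import Cfsg.Agent.Chars2.InvolutionClasses.Cent
import Cfsg.Agent.Chev.OrderFormulas

/-!
The centraliser order from kernel checks on the tables, and the two-class statement.
-/

set_option autoImplicit false
set_option linter.unusedSectionVars false

universe u

namespace Cfsg.Agent.Chars2.InvolutionClasses

open Cfsg.Lie Cfsg.Agent.Chev

/-- The action of a word on the tables. -/
noncomputable def actT (T : FTab) (L : List ℕ) (r : ℕ) : ℕ := L.foldr T.w r

/-- Even coefficient at a node. -/
noncomputable def evT (T : FTab) (j0 r : ℕ) : Bool := Nat.beq (Nat.mod (T.coefC r j0) 2) 0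

/-- The even positive roots that a word makes negative. -/
noncomputable def countT (T : FTab) (j0 : ℕ) (L : List ℕ) : ℕ :=
  sumBelow (fun r => bif posT T r && evT T j0 r && !posT T (actT T L r) then 1 else 0) T.n

/-- The even positive roots. -/
noncomputable def posEvenT (T : FTab) (j0 : ℕ) : ℕ :=
  sumBelow (fun r => bif posT T r && evT T j0 r then 1 else 0) T.n

/-- The parities along a word. -/
noncomputable def stateT (T : FTab) (j0 : ℕ) (Q : List ℕ) : List Bool :=
  (List.range T.l).map fun k => evT T j0 (actT T Q (T.simp' k))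

/-- The check of a representative. -/
noncomputable def okRep (T : FTab) (j0 : ℕ) (K : List ℕ) (p : List ℕ × ℕ) : Bool :=
  p.1.all (fun i => Nat.blt i T.l) &&
    allBelow (fun k => evT T j0 (actT T p.1 (T.simp' k)) == !(Nat.beq k j0)) T.l &&
    K.all (fun k => posT T (actT T p.1 (T.simp' k))) && Nat.beq (countT T j0 p.1) p.2

/-- A list of naturals as a word. -/
def finWord (l : ℕ) (L : List ℕ) : List (Fin l) := L.filterMap fun i => if h : i < l then some ⟨i, h⟩ else none

theorem map_finWord {l : ℕ} : ∀ {L : List ℕ}, (∀ i ∈ L, i < l) → (finWord l L).map Fin.val = L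
  | [], _ => rfl
  | a :: L, h => by
    have ih := map_finWord fun i hi => h i (List.mem_cons_of_mem _ hi)
    rw [finWord] at ih ⊢
    rw [List.filterMap_cons_some (b := ⟨a, h a List.mem_cons_self⟩) (dif_pos _), List.map_cons, ih]

/-- The data of one class. -/
structure ClassData (T : FTab) (j0 : ℕ) (K : List ℕ) (chain : List PStep) (reps : List (List ℕ × ℕ))
    (orb : List (List ℕ)) : Prop where
  hj : j0 < T.l
  hK : ∀ k ∈ K, k < T.l ∧ k ≠ j0
  hchain : okPChain T K chain = true
  hreps : reps.all (okRep T j0 K) = true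
  hdist : (reps.map fun p => (List.range T.l).map fun k => actT T p.1 (T.simp' k)).Nodup
  horb : orb.all (fun Q => Q.all fun i => Nat.blt i T.l) = true
  horbd : (orb.map (stateT T j0)).Nodup
  hne : 0 < orb.length

section

variable {D : ChevalleyDatum} {T : FTab} (H : AllOK D T)
include H



theorem act_eq_actT {L : List ℕ} (hL : ∀ i ∈ L, i < T.l) {r : ℕ} (hr : r < T.n) :
    act D L r = actT T L r ∧ act D L r < T.n := by
  have B := H.basic
  induction L with
  | nil => exact ⟨rfl, hr⟩
  | cons a L ih =>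
    obtain ⟨e, hlt⟩ := ih fun i hi => hL i (List.mem_cons_of_mem _ hi)
    have ha := hL a List.mem_cons_self
    refine ⟨?_, ?_⟩
    · rw [act_cons, B.refl_eq ha hlt, e]; rfl
    · rw [act_cons]
      exact lt_of_lt_of_eq (Cert.refl_lt (AllOK.cert.{0} H) a (lt_of_lt_of_eq ha B.rank_eq.symm) _
        (lt_of_lt_of_eq hlt B.nroots_eq.symm)) B.nroots_eq

theorem posT_iff {r : ℕ} (hr : r < T.n) : posT T r = true ↔ D.IsPosRoot r := by
  rw [Cert.pos_iff (AllOK.cert.{0} H) r (lt_of_lt_of_eq hr H.basic.nroots_eq.symm), posT, allBelow_iff]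
  constructor
  · intro h k hk
    have := Nat.ble_eq.mp (h k (lt_of_lt_of_eq hk H.basic.rank_eq))
    show (0 : ℤ) ≤ T.coefI r k
    unfold FTab.coefI; omega
  · intro h k hk
    have : (0 : ℤ) ≤ T.coefI r k := h k (lt_of_lt_of_eq hk H.basic.rank_eq.symm)
    unfold FTab.coefI at this
    exact Nat.ble_eq.mpr (by omega)

theorem negT_iff {r : ℕ} (hr : r < T.n) : (!posT T r) = true ↔ D.IsNegRoot r := by
  have hr' : r < D.nroots := lt_of_lt_of_eq hr H.basic.nroots_eq.symm
  constructor
  · intro h
    refine (Cert.posRoot_or_negRoot (AllOK.cert.{0} H) hr').resolve_left fun hp => ?_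
    rw [(posT_iff H hr).mpr hp] at h; exact absurd h (by decide)
  · intro h
    cases hb : posT T r
    · rfl
    · exact absurd ((posT_iff H hr).mp hb) fun hp => Cert.not_pos_and_neg (AllOK.cert.{0} H) hp h

/-- The parity vector of a node. -/
noncomputable def nodeVec (D : ChevalleyDatum) (j0 : ℕ) : Fin D.rank → ZMod 2 := fun i => if (i : ℕ) = j0 then 1 else 0

theorem evT_iff {j0 : ℕ} (hj : j0 < T.l) (r : ℕ) : evT T j0 r = true ↔ par (AllOK.cert.{0} H) (nodeVec D j0) r = 0 := by
  have hj' : j0 < D.rank := lt_of_lt_of_eq hj H.basic.rank_eq.symm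
  have hp : par (AllOK.cert.{0} H) (nodeVec D j0) r = ((T.coefC r j0 : ℕ) : ZMod 2) := by
    rw [par, Finset.sum_eq_single (⟨j0, hj'⟩ : Fin D.rank) (fun b _ hb => by
      rw [nodeVec, if_neg fun e => hb (Fin.ext e), mul_zero]) (by simp), nodeVec, if_pos rfl, mul_one]
    show ((T.coefI r j0 : ℤ) : ZMod 2) = _
    rw [FTab.coefI, Int.cast_sub, Int.cast_natCast, Int.cast_ofNat, show (8 : ZMod 2) = 0 by decide, sub_zero]
  rw [hp, ZMod.natCast_eq_zero_iff, Nat.dvd_iff_mod_eq_zero]
  exact ⟨Nat.eq_of_beq_eq_true, fun h => by rw [evT, show Nat.mod (T.coefC r j0) 2 = 0 from h]; rfl⟩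

theorem simp_lt_T {k : ℕ} (hk : k < D.rank) : D.simple k = T.simp' k ∧ T.simp' k < T.n := by
  have hkl := lt_of_lt_of_eq hk H.basic.rank_eq
  exact ⟨H.basic.simple_eq hkl, H.basic.simp_lt hkl⟩

theorem wPoly_congr {J J' : List ℕ} (h : ∀ i ∈ J', i ∈ J) (h' : ∀ i ∈ J, i ∈ J') (q : ℕ) :
    Cert.wPoly (AllOK.cert.{0} H) J q = Cert.wPoly (AllOK.cert.{0} H) J' q := by
  rw [Cert.wPoly, Cert.wPoly, le_antisymm (Cert.WSub_mono (AllOK.cert.{0} H) h') (Cert.WSub_mono (AllOK.cert.{0} H) h)]

variable {M : CoxeterMatrix (Fin D.rank)} (hM : CoxOK D M) {wOrd : List ℕ} {wChain : List PStep}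
  (hord : ∀ i < D.rank, i ∈ wOrd) (hordl : ∀ i ∈ wOrd, i < D.rank) (hwch : okPChain T wOrd wChain = true)
  {j0 : ℕ} {K : List ℕ} {chain : List PStep} {reps : List (List ℕ × ℕ)} {orb : List (List ℕ)}
  (hd : ClassData T j0 K chain reps orb)
  (hcount : (wChain.map fun S => S.factor 1).prod = orb.length * (reps.length * (chain.map fun S => S.factor 1).prod))
include hM hord hordl hwch hd hcount

set_option maxHeartbeats 1000000 in
/-- The centraliser of the sign element of a node. -/
theorem card_cent_node {l N : ℕ} (hN : posEvenT T j0 = N) {degs : List ℕ}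
    (hid : chainIdentB (⟨[], [], reps.map Prod.snd, []⟩ :: chain) l degs = true)
    {F : Type} [Field F] [Fintype F] (h2 : (2 : F) ≠ 0)
    (hTF : Nat.card (D.diagonalSubgroup F) = (Fintype.card F - 1) ^ l) {t : GL D.Idx F}
    (ht : IsSgn (AllOK.cert.{0} H) t (nodeVec D j0)) :
    Nat.card {g : GL D.Idx F // g ∈ D.group F ∧ Commute t g} =
      Fintype.card F ^ N * (degs.map fun e => Fintype.card F ^ e - 1).prod := by
  classical
  set C := AllOK.cert.{0} H with hC
  set a := nodeVec D j0 with ha
  have B := H.basic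
  have hnr : ∀ {r : ℕ}, r < D.nroots → r < T.n := fun h => lt_of_lt_of_eq h B.nroots_eq
  have hrep : ∀ p ∈ reps, (∀ i ∈ p.1, i < T.l) ∧
      (∀ k < T.l, evT T j0 (actT T p.1 (T.simp' k)) = !(Nat.beq k j0)) ∧
      (∀ k ∈ K, posT T (actT T p.1 (T.simp' k)) = true) ∧ countT T j0 p.1 = p.2 := by
    intro p hp
    have h := List.all_eq_true.mp hd.hreps p hp
    simp only [okRep, Bool.and_eq_true, List.all_eq_true, allBelow_iff, beq_iff_eq] at h
    exact ⟨fun i hi => Nat.blt_eq.mp (h.1.1.1 i hi), h.1.1.2, h.1.2, Nat.eq_of_beq_eq_true h.2⟩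
  have hev : ∀ r : ℕ, evT T j0 r = true ↔ par C a r = 0 := evT_iff H hd.hj
  have hrep' : ∀ i : Fin reps.length, (∀ x ∈ (reps[i]).1, x < T.l) ∧
      (∀ k < T.l, evT T j0 (actT T (reps[i]).1 (T.simp' k)) = !(Nat.beq k j0)) ∧
      (∀ k ∈ K, posT T (actT T (reps[i]).1 (T.simp' k)) = true) ∧ countT T j0 (reps[i]).1 = (reps[i]).2 :=
    fun i => hrep _ (List.getElem_mem i.isLt)
  let u : Fin reps.length → Equiv.Perm (Fin D.nroots) := fun i => ((finWord D.rank (reps[i].1)).map C.reflPerm).prod
  have hul : ∀ i : Fin reps.length, ∀ x ∈ (reps[i]).1, x < D.rank := fun i x hx =>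
    lt_of_lt_of_eq ((hrep' i).1 x hx) B.rank_eq.symm
  have hu : ∀ (i : Fin reps.length) (r : Fin D.nroots), ((u i r : Fin D.nroots) : ℕ) = actT T (reps[i]).1 r := by
    intro i r
    show (((finWord D.rank (reps[i].1)).map C.reflPerm).prod r : ℕ) = _
    rw [C.reflPerm_prod, map_finWord (hul i)]
    exact (act_eq_actT H (hrep' i).1 (hnr r.isLt)).1
  have humem : ∀ i, u i ∈ C.WSub (List.range D.rank) := fun i => Subgroup.list_prod_mem _ fun x hx => by
    obtain ⟨k, -, rfl⟩ := List.mem_map.mp hx
    exact C.reflPerm_mem (List.mem_range.mpr k.isLt)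
  have hufix : ∀ i, u i ∈ fixW C a := fun i => by
    refine (mem_fixW C).mpr ⟨humem i, fun r => ?_⟩
    have hLlt := hul i
    have e1 : ((u i r : Fin D.nroots) : ℕ) = act D (reps[i]).1 r := by
      rw [hu i r, (act_eq_actT H (hrep' i).1 (hnr r.isLt)).1]
    rw [e1, par_act C a hLlt r.isLt, par]
    refine Finset.sum_congr rfl fun k _ => ?_
    congr 1
    obtain ⟨es, hs⟩ := simp_lt_T H k.isLt
    rw [es, (act_eq_actT H (hrep' i).1 hs).1]
    have h1 := (hrep' i).2.1 k (lt_of_lt_of_eq k.isLt B.rank_eq)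
    by_cases hk : (k : ℕ) = j0
    · rcases zmod2_cases (par C a (actT T (reps[i]).1 (T.simp' k))) with h0 | h0
      · rw [hk, beq_t rfl] at h1
        rw [hk] at h0
        exact absurd ((evT_iff H hd.hj _).mpr h0) (by rw [h1]; decide)
      · rw [h0, ha, nodeVec, if_pos hk]
    · rw [beq_f hk] at h1
      rw [ha, nodeVec, if_neg hk]
      exact (evT_iff H hd.hj _).mp h1
  have hinj : Function.Injective u := by
    intro i i' e
    have h1 : ((List.range T.l).map fun k => actT T (reps[i]).1 (T.simp' k)) =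
        (List.range T.l).map fun k => actT T (reps[i']).1 (T.simp' k) := by
      refine List.map_congr_left fun k hk => ?_
      have hk' : k < D.rank := lt_of_lt_of_eq (List.mem_range.mp hk) B.rank_eq.symm
      obtain ⟨es, hs⟩ := simp_lt_T H hk'
      rw [← es, ← hu i ⟨D.simple k, C.simple_lt k hk'⟩, e, hu]
    refine Fin.ext ?_
    have h2 := hd.hdist
    refine (List.Nodup.getElem_inj_iff h2 (hi := by rw [List.length_map]; exact i.isLt)
      (hj := by rw [List.length_map]; exact i'.isLt)).mp ?_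
    rw [List.getElem_map, List.getElem_map]
    exact h1
  have hQl : ∀ Q ∈ orb, ∀ i ∈ Q, i < T.l := fun Q hQ i hi => by
    have h := List.all_eq_true.mp hd.horb Q hQ
    exact Nat.blt_eq.mp (List.all_eq_true.mp h i hi)
  let Q : Fin orb.length → Equiv.Perm (Fin D.nroots) := fun j => ((finWord D.rank orb[j]).map C.reflPerm).prod
  have hQ : ∀ j, Q j ∈ C.WSub (List.range D.rank) := fun j => Subgroup.list_prod_mem _ fun x hx => by
    obtain ⟨k, -, rfl⟩ := List.mem_map.mp hx
    exact C.reflPerm_mem (List.mem_range.mpr k.isLt)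
  have hQval : ∀ (j : Fin orb.length) (k : Fin D.rank),
      ((Q j ⟨D.simple k, C.simple_lt k k.isLt⟩ : Fin D.nroots) : ℕ) = actT T orb[j] (T.simp' k) := by
    intro j k
    show (((finWord D.rank orb[j]).map C.reflPerm).prod _ : ℕ) = _
    have hl : ∀ x ∈ orb[j], x < T.l := hQl _ (List.getElem_mem j.isLt)
    rw [C.reflPerm_prod, map_finWord fun i hi => lt_of_lt_of_eq (hl i hi) B.rank_eq.symm]
    obtain ⟨es, hs⟩ := simp_lt_T H k.isLt
    rw [show ((⟨D.simple k, C.simple_lt k k.isLt⟩ : Fin D.nroots) : ℕ) = T.simp' k from es]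
    exact (act_eq_actT H hl hs).1
  have hQinj : Function.Injective fun j (k : Fin D.rank) => par C a (Q j ⟨D.simple k, C.simple_lt k k.isLt⟩) := by
    intro j j' e
    have h1 : stateT T j0 orb[j] = stateT T j0 orb[j'] := by
      refine List.map_congr_left fun k hk => ?_
      have hk' : k < D.rank := lt_of_lt_of_eq (List.mem_range.mp hk) B.rank_eq.symm
      have h2 : par C a (Q j ⟨D.simple k, C.simple_lt k hk'⟩ : Fin D.nroots) =
          par C a (Q j' ⟨D.simple k, C.simple_lt k hk'⟩ : Fin D.nroots) := congrFun e ⟨k, hk'⟩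
      rw [hQval j ⟨k, hk'⟩, hQval j' ⟨k, hk'⟩] at h2
      rw [Bool.eq_iff_iff, hev, hev]
      rw [show par C a (actT T orb[j] (T.simp' k)) = par C a (actT T orb[j'] (T.simp' k)) from h2]
    refine Fin.ext ?_
    refine (List.Nodup.getElem_inj_iff hd.horbd (hi := by rw [List.length_map]; exact j.isLt)
      (hj := by rw [List.length_map]; exact j'.isLt)).mp ?_
    rw [List.getElem_map, List.getElem_map]
    exact h1
  have hKlt : ∀ k ∈ K, k < D.rank := fun k hk => lt_of_lt_of_eq (hd.hK k hk).1 B.rank_eq.symm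
  have hW : C.wPoly (List.range D.rank) 1 = orb.length * (reps.length * C.wPoly K 1) := by
    rw [wPoly_congr H (J := List.range D.rank) (J' := wOrd) (fun i hi => List.mem_range.mpr (hordl i hi))
      (fun i hi => hord i (List.mem_range.mp hi)), wPoly_of_okChain H hM 1 _ _ hwch,
      wPoly_of_okChain H hM 1 _ _ hd.hchain, hcount]
  have hdd : ∀ i, ((permInv D (u i)).filter fun r : Fin D.nroots => par C a r = 0).card = (reps[i]).2 := by
    intro i
    rw [← (hrep' i).2.2.2, countT, sumBelow_eq,
      show T.n = D.nroots from B.nroots_eq.symm, Finset.sum_range, permInv, Finset.filter_filter, Finset.card_filter]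
    refine Finset.sum_congr rfl fun r _ => ?_
    have hr := hnr r.isLt
    rw [hu i r]
    have hlt : actT T (reps[i]).1 r < T.n := by
      rw [← (act_eq_actT H (hrep' i).1 hr).1]
      exact (act_eq_actT H (hrep' i).1 hr).2
    simp only [← posT_iff H hr, ← negT_iff H hlt, ← hev]
    rcases Bool.eq_false_or_eq_true (posT T r && evT T j0 r && !posT T (actT T (reps[i]).1 r)) with h | h
    · rw [h, cond_true, if_pos]
      simp only [Bool.and_eq_true] at h ⊢
      tauto
    · rw [h, cond_false, if_neg]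
      intro hc
      rw [hc.1.1, hc.1.2, hc.2] at h
      exact absurd h (by decide)
  have hsum := fix_sum C hM a hKlt (fun k hk => by rw [ha, nodeVec, if_neg (hd.hK k hk).2]) u (fun i => (reps[i]).2) hufix
    (fun i k hk => (posT_iff H (by rw [hu]; exact lt_of_lt_of_eq (by rw [← hu]; exact Fin.isLt _) B.nroots_eq)).mp (by
      rw [hu, show ((⟨D.simple k, C.simple_lt k k.isLt⟩ : Fin D.nroots) : ℕ) = T.simp' k from (simp_lt_T H k.isLt).1]
      exact (hrep' i).2.2.1 k hk))
    hinj hdd Q hQ hQinj hd.hne hW (Fintype.card F)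
  rw [card_cent C hM h2 ht, hsum, hTF, wPoly_of_okChain H hM _ _ _ hd.hchain]
  have hpe : ((Finset.univ : Finset (Fin D.nroots)).filter fun r : Fin D.nroots => D.IsPosRoot r ∧ par C a r = 0).card = N := by
    rw [← hN, posEvenT, sumBelow_eq, show T.n = D.nroots from B.nroots_eq.symm, Finset.sum_range, Finset.card_filter]
    refine Finset.sum_congr rfl fun r _ => ?_
    simp only [← posT_iff H (hnr r.isLt), ← hev]
    rcases Bool.eq_false_or_eq_true (posT T r && evT T j0 r) with h | h
    · rw [h, cond_true, if_pos]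
      simpa using h
    · rw [h, cond_false, if_neg]
      intro hc
      rw [hc.1, hc.2] at h
      exact absurd h (by decide)
  rw [hpe, ← chain_identity hid Fintype.one_lt_card.le, List.map_cons, List.prod_cons]
  have hfac : (∑ i : Fin reps.length, Fintype.card F ^ (reps[i]).2) =
      PStep.factor ⟨[], [], reps.map Prod.snd, []⟩ (Fintype.card F) := by
    show _ = (((reps.map Prod.snd).map fun d => Fintype.card F ^ d)).sum
    rw [List.map_map, ← Fin.sum_univ_getElem (reps.map _)]
    apply Finset.sum_equiv (finCongr (by rw [List.length_map]))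
    · intro i; simp
    · intro i _; simp
  rw [hfac]
  ring

end

end Cfsg.Agent.Chars2.InvolutionClasses
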