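import Cfsg.Agent.Chars2.InvolutionClasses.Twisted
import Cfsg.Agent.Chars2.SingerTorus.Torus
import Cfsg.Agent.LeadWork.ChevFieldAut
import Mathlib.FieldTheory.Finite.Extension

/-!
Every involution of a Chevalley group with unimodular Cartan matrix, in odd characteristic, is
conjugate into the split torus.
-/

set_option autoImplicit false
set_option linter.unusedSectionVars false

universe u v

namespace Cfsg.Agent.Chars2.InvolutionClasses

open Cfsg.Lie Cfsg.Agent.Chev Cfsg.Agent.Chars2.Homocyclic Cfsg.Agent.Chars2.SingerTorus Matrix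

variable {D : ChevalleyDatum}

/-- The sign with a given parity. -/
def sg (K : Type*) [Field K] (x : ZMod 2) : K := if x = 0 then 1 else -1

theorem sg_zero (K : Type*) [Field K] : sg K 0 = 1 := if_pos rfl

theorem sg_one (K : Type*) [Field K] : sg K 1 = -1 := if_neg (by decide)

theorem zmod2_cases : ∀ x : ZMod 2, x = 0 ∨ x = 1 := by decide

theorem sg_add (K : Type*) [Field K] (x y : ZMod 2) : sg K (x + y) = sg K x * sg K y := by
  rcases zmod2_cases x with rfl | rfl <;> rcases zmod2_cases y with rfl | rfl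
  · simp [sg_zero]
  · simp [sg_zero, sg_one]
  · simp [sg_zero, sg_one]
  · rw [show (1 : ZMod 2) + 1 = 0 by decide, sg_zero, sg_one]; norm_num

theorem sg_zpow (K : Type*) [Field K] (x : ZMod 2) (z : ℤ) : sg K x ^ z = sg K ((z : ZMod 2) * x) := by
  rcases zmod2_cases x with rfl | rfl
  · simp [sg_zero]
  rw [mul_one, sg_one]
  rcases Int.even_or_odd z with h | h
  · rw [h.neg_one_zpow, (ZMod.intCast_eq_zero_iff_even).mpr h, sg_zero]
  · rw [h.neg_one_zpow, (ZMod.intCast_eq_one_iff_odd).mpr h, sg_one]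

theorem sg_sum (K : Type*) [Field K] {ι : Type*} (S : Finset ι) (f : ι → ZMod 2) :
    sg K (∑ i ∈ S, f i) = ∏ i ∈ S, sg K (f i) := by
  classical
  induction S using Finset.induction_on with
  | empty => simp [sg_zero]
  | insert a S ha ih => rw [Finset.sum_insert ha, Finset.prod_insert ha, sg_add, ih]

theorem map_sg {E K : Type*} [Field E] [Field K] (f : E →+* K) (x : ZMod 2) : f (sg E x) = sg K x := by
  rcases zmod2_cases x with rfl | rfl <;> simp [sg_zero, sg_one]

section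
variable (C : Cert.{0} D) {K : Type} [Field K]
include C

/-- A torus element acting by signs with the given parities. -/
def IsSgn (t : GL D.Idx K) (a : Fin D.rank → ZMod 2) : Prop :=
  t ∈ D.diagonalSubgroup K ∧ (t : Matrix D.Idx D.Idx K) = dMat D (fun s => sg K (par C a s))

theorem IsSgn.conj {t : GL D.Idx K} {a : Fin D.rank → ZMod 2} (h : IsSgn C t a) :
    ∀ r < D.nroots, ∀ x : K, t * C.xu r x * t⁻¹ = C.xu r (if par C a r = 0 then x else -x) := by
  intro r hr x
  obtain ⟨χ, hχ, -, e⟩ := C.diagonal_char h.1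
  have he : χ r = sg K (par C a r) := by rw [← dMat_entry e hr, dMat_entry h.2 hr]
  have h1 : t * C.xu r x = C.xu r (χ r * x) * t := Units.ext (by simp [e, C.dMat_conj hχ hr x])
  rw [h1, mul_inv_cancel_right, he]
  congr 1
  unfold sg
  split_ifs <;> simp

theorem IsSgn.unique {t t' : GL D.Idx K} {a : Fin D.rank → ZMod 2} (h : IsSgn C t a) (h' : IsSgn C t' a) : t = t' :=
  Units.ext (h.2.trans h'.2.symm)

theorem IsSgn.map {E : Type} [Field E] {t : GL D.Idx E} {a : Fin D.rank → ZMod 2} (h : IsSgn C t a) (f : E →+* K) :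
    IsSgn C (gmap D f t) a := by
  refine ⟨map_diagonal_le f (Subgroup.mem_map_of_mem _ h.1), ?_⟩
  rw [coe_gmap, h.2, dMat_map]
  exact dMat_congr fun s _ => map_sg f _

theorem IsSgn.sq {t : GL D.Idx K} {a : Fin D.rank → ZMod 2} (h : IsSgn C t a) : t * t = 1 := by
  refine Units.ext ?_
  rw [Units.val_mul, h.2, dMat_mul, Units.val_one, ← dMat_one]
  refine dMat_congr fun s _ => ?_
  rw [Pi.mul_apply, Pi.one_apply, ← sg_add, ← two_mul, show (2 : ZMod 2) = 0 by decide, zero_mul, sg_zero]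

theorem isSgn_one : IsSgn C (1 : GL D.Idx K) 0 := by
  refine ⟨one_mem _, ?_⟩
  rw [Units.val_one, ← dMat_one]
  exact dMat_congr fun s _ => by rw [par_zero C, sg_zero]; rfl

/-- An involution of the torus acts by signs. -/
theorem exists_sgn_of_sq {t : GL D.Idx K} (ht : t ∈ D.diagonalSubgroup K) (h1 : t * t = 1) :
    ∃ a, IsSgn C t a := by
  classical
  obtain ⟨χ, -, -, e⟩ := C.diagonal_char ht
  have hsq : ∀ s < D.nroots, χ s * χ s = 1 := fun s hs => by
    have h2 := congrArg (fun g : GL D.Idx K => (g : Matrix D.Idx D.Idx K)) h1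
    rw [Units.val_mul, e, dMat_mul, Units.val_one, ← dMat_one] at h2
    have h3 := congrFun (congrFun h2 (Sum.inr ⟨s, hs⟩)) (Sum.inr ⟨s, hs⟩)
    simpa [dMat] using h3
  refine ⟨fun j => if χ (D.simple j) = 1 then 0 else 1, ht, ?_⟩
  rw [e]
  refine dMat_congr fun s hs => ?_
  rw [char_eq C ht e hs, par, sg_sum]
  refine Finset.prod_congr rfl fun j _ => ?_
  rw [← sg_zpow]
  congr 1
  rcases mul_self_eq_one_iff.mp (hsq _ (C.simple_lt j j.isLt)) with h | h
  · rw [h, if_pos rfl, sg_zero]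
  · by_cases h' : χ (D.simple j) = 1
    · rw [if_pos h', h', sg_zero]
    · rw [if_neg h', h, sg_one]

/-- Sign elements exist when the Cartan matrix is invertible. -/
theorem exists_sgn {B : Matrix (Fin D.rank) (Fin D.rank) ℤ} (hB : cartMat D * B = 1) (a : Fin D.rank → ZMod 2) :
    ∃ t : GL D.Idx K, IsSgn C t a := by
  classical
  set b := a ᵥ* B.map (Int.castRingHom (ZMod 2)) with hb
  have hBA : B * cartMat D = 1 := mul_eq_one_comm.mp hB
  have hba : b ᵥ* (cartMat D).map (Int.castRingHom (ZMod 2)) = a := by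
    rw [hb, Matrix.vecMul_vecMul, ← Matrix.map_mul, hBA, Matrix.map_one _ (map_zero _) (map_one _), Matrix.vecMul_one]
  let c : ℕ → K := fun k => if h : k < D.rank then sg K (b ⟨k, h⟩) else 1
  have hc : ∀ k < D.rank, c k ≠ 0 := fun k hk => by
    simp only [c, dif_pos hk]
    rcases zmod2_cases (b ⟨k, hk⟩) with h | h <;> simp [h, sg_zero, sg_one]
  refine ⟨C.torusElt c, C.mem_diagonal_iff.mpr ⟨c, hc, rfl⟩, ?_⟩
  rw [C.coe_torusElt hc]
  refine dMat_congr fun s hs => ?_
  rw [Finset.prod_range]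
  simp only [cartChar, c, dif_pos (Fin.isLt _), Fin.eta, sg_zpow, ← sg_sum]
  congr 1
  rw [par]
  conv_rhs => rw [← hba]
  simp only [Matrix.vecMul, dotProduct, Matrix.map_apply, cartMat, eq_intCast, Finset.mul_sum]
  rw [Finset.sum_comm]
  refine Finset.sum_congr rfl fun k _ => ?_
  rw [C.cartan_linear k k.isLt s hs, Finset.sum_range, Int.cast_sum, Finset.sum_mul]
  exact Finset.sum_congr rfl fun j _ => by push_cast; ring

end

/-- An element with a prescribed power in a finite field. -/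
theorem exists_pow_eq {K : Type} [Field K] [Fintype K] {d d' : ℕ} (hn : d * d' = Fintype.card K - 1) (y : K)
    (hy : y ^ d' = 1) : ∃ x, x ^ d = y := by
  classical
  have hd' : 0 < d' := Nat.pos_of_ne_zero fun h => by
    have := Fintype.one_lt_card (α := K)
    rw [h, mul_zero] at hn
    omega
  have hy0 : y ≠ 0 := fun h => by rw [h, zero_pow hd'.ne'] at hy; exact zero_ne_one hy
  obtain ⟨g, hg⟩ := IsCyclic.exists_monoid_generator (α := Kˣ)
  obtain ⟨k, hk⟩ := hg (Units.mk0 y hy0)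
  simp only at hk
  have hord : orderOf g = Fintype.card K - 1 := by
    rw [← Fintype.card_units, orderOf_eq_card_of_forall_mem_powers hg, Nat.card_eq_fintype_card]
  have h1 : g ^ (k * d') = 1 := by
    rw [pow_mul, hk]
    exact Units.ext (by rw [Units.val_pow_eq_pow_val, Units.val_mk0, hy, Units.val_one])
  have h2 := orderOf_dvd_of_pow_eq_one h1
  rw [hord, ← hn] at h2
  obtain ⟨w, hw⟩ := Nat.dvd_of_mul_dvd_mul_right hd' h2
  refine ⟨((g ^ w : Kˣ) : K), ?_⟩
  rw [← Units.val_pow_eq_pow_val, ← pow_mul, mul_comm w d, ← hw, hk, Units.val_mk0]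

variable (C : Cert.{0} D) {M : CoxeterMatrix (Fin D.rank)} (hM : CoxOK D M)
  {B : Matrix (Fin D.rank) (Fin D.rank) ℤ} (hB : cartMat D * B = 1)
  (hA : ∀ i j : Fin D.rank, i ≠ j → D.cartan i (D.simple j) ≠ 0 →
      ∃ r < D.nroots, ∀ k : Fin D.rank, C.coef r k = (if k = i then 1 else 0) + if k = j then 1 else 0)
  (hT : ∀ (K : Type) [Field K] [Fintype K], Nat.card (D.diagonalSubgroup K) = (Fintype.card K - 1) ^ D.rank)
include C hM hB hA hT

theorem parity_nondeg : ∀ b : Fin D.rank → ZMod 2,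
    (∀ k : Fin D.rank, ∑ j : Fin D.rank, b j * (D.cartan j (D.simple k) : ZMod 2) = 0) → b = 0 := by
  intro b hb
  have h1 : b ᵥ* (cartMat D).map (Int.castRingHom (ZMod 2)) = 0 := funext fun k => (hb k : _)
  have h2 := congrArg (fun w => w ᵥ* B.map (Int.castRingHom (ZMod 2))) h1
  simpa only [Matrix.vecMul_vecMul, ← Matrix.map_mul, hB, Matrix.map_one _ (map_zero (Int.castRingHom (ZMod 2)))
    (map_one (Int.castRingHom (ZMod 2))), Matrix.vecMul_one, Matrix.zero_vecMul] using h2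

/-- Hilbert 90 for the torus over a quadratic extension. -/
theorem torus_h90 {K : Type} [Field K] [Fintype K] (φ : K →+* K) {q : ℕ} (hq : Fintype.card K = q ^ 2)
    (hφ : ∀ x, φ x = x ^ q) {h : GL D.Idx K} (hh : h ∈ D.diagonalSubgroup K) (hφh : gmap D φ h = h⁻¹) :
    ∃ y ∈ D.diagonalSubgroup K, gmap D φ y * h * y⁻¹ = 1 := by
  classical
  obtain ⟨P⟩ := nonempty_logCoord C (K := K)
  set n := Fintype.card K - 1 with hn
  have hK1 := Fintype.one_lt_card (α := K)
  haveI : NeZero n := ⟨by omega⟩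
  have hq2 : 2 ≤ q := by
    rcases Nat.lt_or_ge q 2 with h | h
    · interval_cases q <;> simp [hq] at hK1
    · exact h
  have hnq : n = (q - 1) * (q + 1) := by rw [hn, hq, mul_comm, ← Nat.sq_sub_sq, one_pow]
  have hval : ∀ (y : ↥(D.diagonalSubgroup K)) (χ : ℕ → K), ((y : GL D.Idx K) : Matrix D.Idx D.Idx K) = dMat D χ →
      ∀ i : Fin D.rank, χ (D.simple i) = (P.ex (Multiplicative.ofAdd ((P.lg y).toAdd i)) : K) := by
    intro y χ e i
    rw [P.spec y χ e _ (C.simple_lt i i.isLt), Finset.sum_eq_single i (fun b _ hb => by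
      rw [coefVec, C.coef_simple i i.isLt b b.isLt, if_neg fun e => hb (Fin.ext e), Int.cast_zero, zero_mul])
      (by simp), coefVec, C.coef_simple i i.isLt i i.isLt, if_pos rfl, Int.cast_one, one_mul]
  let Φ : ↥(D.diagonalSubgroup K) → ↥(D.diagonalSubgroup K) := fun y =>
    ⟨gmap D φ y, map_diagonal_le φ (Subgroup.mem_map_of_mem _ y.2)⟩
  have hΦ : ∀ y i, (P.lg (Φ y)).toAdd i = (q : ZMod n) * (P.lg y).toAdd i := by
    intro y i
    obtain ⟨χ, -, -, e⟩ := C.diagonal_char y.2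
    have e' : ((Φ y : GL D.Idx K) : Matrix D.Idx D.Idx K) = dMat D fun s => φ (χ s) := by
      show (gmap D φ (y : GL D.Idx K) : Matrix D.Idx D.Idx K) = _
      rw [coe_gmap, e, dMat_map]
    refine Multiplicative.ofAdd.injective (P.ex.injective (Units.ext ?_))
    rw [← hval (Φ y) _ e' i, hφ, hval y χ e i, ← Units.val_pow_eq_pow_val, ← map_pow, ← ofAdd_nsmul, nsmul_eq_mul]
  have hX : ∀ i, (q : ZMod n) * (P.lg ⟨h, hh⟩).toAdd i + (P.lg ⟨h, hh⟩).toAdd i = 0 := by
    intro i
    have h1 : Φ ⟨h, hh⟩ = (⟨h, hh⟩ : ↥(D.diagonalSubgroup K))⁻¹ := Subtype.ext hφh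
    rw [← hΦ, h1, map_inv, toAdd_inv, Pi.neg_apply, neg_add_cancel]
  have hdiv : ∀ i, ∃ w : ℕ, (P.lg ⟨h, hh⟩).toAdd i = ((q - 1 : ℕ) : ZMod n) * w := by
    intro i
    set x := (P.lg ⟨h, hh⟩).toAdd i
    have h1 : (((q + 1) * x.val : ℕ) : ZMod n) = 0 := by
      rw [Nat.cast_mul, Nat.cast_add, Nat.cast_one, ZMod.natCast_zmod_val, add_mul, one_mul]; exact hX i
    rw [ZMod.natCast_eq_zero_iff] at h1
    rw [hnq, mul_comm (q - 1)] at h1
    obtain ⟨w, hw⟩ := Nat.dvd_of_mul_dvd_mul_left (by omega) h1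
    exact ⟨w, by rw [← Nat.cast_mul, ← hw, ZMod.natCast_zmod_val]⟩
  choose w hw using hdiv
  obtain ⟨y, hy⟩ := P.surjective (hT K) (Multiplicative.ofAdd fun i => -((w i : ZMod n)))
  refine ⟨y, y.2, ?_⟩
  have h2 : Φ y * ⟨h, hh⟩ * y⁻¹ = 1 := P.inj (Multiplicative.toAdd.injective (funext fun i => by
    rw [map_mul P.lg _ y⁻¹, map_mul P.lg (Φ y), map_inv P.lg, map_one P.lg, toAdd_mul, toAdd_mul, toAdd_inv, toAdd_one, Pi.add_apply, Pi.add_apply,
      Pi.neg_apply, Pi.zero_apply, hΦ, hw i, hy, toAdd_ofAdd, Nat.cast_sub (by omega), Nat.cast_one]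
    ring))
  exact congrArg Subtype.val h2

/-- Every involution is conjugate into the torus. -/
theorem exists_conj_sgn {F : Type} [Field F] [Fintype F] (h2 : (2 : F) ≠ 0) {g : GL D.Idx F} (hg : g ∈ D.group F)
    (hg1 : g * g = 1) : ∃ x ∈ D.group F, ∃ a, IsSgn C (x * g * x⁻¹) a := by
  classical
  have hU := parity_nondeg C hM hB hA hT
  -- the monomial case, by induction on the negated set
  suffices key : ∀ (n : ℕ) (F : Type) [Field F] [Fintype F], (2 : F) ≠ 0 → ∀ (L : List (Fin D.rank)) (h : GL D.Idx F),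
      h ∈ D.diagonalSubgroup F → h * C.nWordElt F (L.map Fin.val) * (h * C.nWordElt F (L.map Fin.val)) = 1 →
      (∀ r < D.nroots, act D (L.map Fin.val) (act D (L.map Fin.val) r) = r) →
      (negSet D (L.map Fin.val)).card = n →
      ∃ x ∈ D.group F, ∃ a, IsSgn C (x * (h * C.nWordElt F (L.map Fin.val)) * x⁻¹) a by
    have hid : ∀ x : GL D.Idx F, gmap D (RingHom.id F) x = x := fun x => Units.ext (Matrix.ext fun i j => rfl)
    obtain ⟨L, h, hh, -, hinv, hm, x, hx, -, ex⟩ := reduce_cell C (RingHom.id F) (fun _ => rfl) h2 hM 1 0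
      (isSgn_one C).conj (one_mem _) (hid 1) hg (Commute.one_left g) (by rw [hid, ← mul_eq_one_iff_eq_inv]; exact hg1)
    rw [hid] at ex hm
    obtain ⟨y, hy, a, ha⟩ := key _ F h2 L h hh (mul_eq_one_iff_eq_inv.mpr hm) hinv rfl
    refine ⟨y * x, mul_mem hy hx, a, ?_⟩
    rw [show y * x * g * (y * x)⁻¹ = y * (x * g * x⁻¹) * y⁻¹ by group, ex]
    exact ha
  clear hg hg1 h2 g
  intro n
  induction n using Nat.strong_induction_on with
  | _ n ih =>
  intro F _ _ h2 L h hh hm hinv hn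
  subst hn
  by_cases hne : ∃ r < D.nroots, act D (L.map Fin.val) r ≠ r
  swap
  · push Not at hne
    have hT' := mul_mem hh (C.nWordElt_mem_diagonal (F := F) hM hne)
    obtain ⟨a, ha⟩ := exists_sgn_of_sq C hT' hm
    exact ⟨1, one_mem _, a, by rw [one_mul, inv_one, mul_one]; exact ha⟩
  set m := h * C.nWordElt F (L.map Fin.val) with hmdef
  -- a quadratic extension
  let p := ringChar F
  haveI : Fact p.Prime := ⟨CharP.char_is_prime F p⟩
  letI : Algebra (ZMod p) F := ZMod.algebra F p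
  let K := FiniteField.Extension F p 2
  letI : Fintype K := Fintype.ofFinite K
  let ι : F →+* K := algebraMap F K
  set q := Fintype.card F with hq
  have hK : Fintype.card K = q ^ 2 := by
    rw [← Nat.card_eq_fintype_card, FiniteField.natCard_extension, Nat.card_eq_fintype_card]
  have h2K : (2 : K) ≠ 0 := by rw [← map_ofNat ι 2]; exact (map_ne_zero ι).mpr h2
  have hidK : ∀ x : GL D.Idx K, gmap D (RingHom.id K) x = x := fun x => Units.ext (Matrix.ext fun i j => rfl)
  set hK' := gmap D ι h with hhK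
  have hhK' : hK' ∈ D.diagonalSubgroup K := map_diagonal_le ι (Subgroup.mem_map_of_mem _ hh)
  have hmK : hK' * C.nWordElt K (L.map Fin.val) = gmap D ι m := by rw [hmdef, map_mul, gmap_nWordElt C C]
  have hmm : hK' * C.nWordElt K (L.map Fin.val) * (hK' * C.nWordElt K (L.map Fin.val)) = 1 := by
    rw [hmK, ← map_mul, hm, map_one]
  obtain ⟨e, he0, -, ⟨r, hr, her⟩, hstep⟩ := step C (RingHom.id K) (fun _ => rfl) h2K hM 1 0 (isSgn_one C).conj
    (one_mem _) (hidK 1) hA hU hhK' (Commute.one_left _) hinv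
    (by rw [hidK]; exact mul_eq_one_iff_eq_inv.mp hmm) hne
  obtain ⟨c, hc0, ec, -⟩ := pair_conj C L hh hr
  have hec : e = ι c := by
    refine xu_inj C (C.act_lt (C.fin_word_lt L) hr) (her.symm.trans ?_)
    have h1 := congrArg (gmap D ι) (ec 1)
    rw [map_mul, map_mul, map_inv, gmap_xu C C, gmap_xu C C, map_one, mul_one, ← hmdef, ← hmK] at h1
    exact h1
  have hq1 : 2 ≤ q := Fintype.one_lt_card
  have hqodd : Odd q := Nat.odd_iff.mpr (FiniteField.odd_card_of_char_ne_two fun e => h2 (by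
    have h4 := CharP.cast_eq_zero F (ringChar F); rw [e] at h4; exact_mod_cast h4))
  have hsq : Fintype.card K - 1 = (q + 1) * (q - 1) := by rw [hK, ← Nat.sq_sub_sq, one_pow]
  have hFq : ∀ x : F, x ≠ 0 → ι x ^ (q - 1) = 1 := fun x hx => by
    rw [← map_pow, hq, FiniteField.pow_card_sub_one_eq_one x hx, map_one]
  obtain ⟨α, hα⟩ : ∃ α : K, e * α * (RingHom.id K) α = 1 := by
    obtain ⟨k, hk⟩ := hqodd
    obtain ⟨x, hx⟩ := exists_pow_eq (d := 2) (d' := (k + 1) * (q - 1)) (y := ι c⁻¹) (by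
      rw [hsq, hk]; ring) (by rw [mul_comm, pow_mul, hFq _ (inv_ne_zero hc0), one_pow])
    refine ⟨x, ?_⟩
    rw [RingHom.id_apply, mul_assoc, ← pow_two, hx, hec, ← map_mul, mul_inv_cancel₀ hc0, map_one]
  obtain ⟨L₁, h₁, hh₁, -, hinv₁, hm₁, hlt, x, hx, -, ex⟩ := hstep ⟨α, hα⟩
  rw [hidK] at ex hm₁
  obtain ⟨y, hy, a, ha⟩ := ih _ hlt K h2K L₁ h₁ hh₁ (mul_eq_one_iff_eq_inv.mpr hm₁) hinv₁ rfl
  set X := y * x with hX
  have hXG : X ∈ D.group K := mul_mem hy hx
  have hXt : IsSgn C (X * gmap D ι m * X⁻¹) a := by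
    rw [show X * gmap D ι m * X⁻¹ = y * (x * (hK' * C.nWordElt K (L.map Fin.val)) * x⁻¹) * y⁻¹ by
      rw [hmK, hX]; group, ex]
    exact ha
  set t := X * gmap D ι m * X⁻¹ with ht
  -- descent
  obtain ⟨tF, htF⟩ := exists_sgn C hB a (K := F)
  let φ : K →+* K := (FiniteField.Extension.frob F p 2 : K ≃ₐ[F] K).toRingEquiv.toRingHom
  have hφ : ∀ x : K, φ x = x ^ q := fun x => by
    show FiniteField.Extension.frob F p 2 x = _
    rw [FiniteField.Extension.frob_apply, Nat.card_eq_fintype_card]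
  have hφ2 : ∀ x, φ (φ x) = x := fun x => by rw [hφ, hφ, ← pow_mul, ← pow_two, ← hK, FiniteField.pow_card]
  have hφι : gmap D φ (gmap D ι m) = gmap D ι m := Units.ext (Matrix.ext fun i j => by
    simp only [coe_gmap, Matrix.map_apply]
    rw [hφ, ← map_pow, hq, FiniteField.pow_card])
  have hφt : gmap D φ t = t := (hXt.map C φ).unique C hXt
  set c' := gmap D φ X * X⁻¹ with hc'
  have hφX : gmap D φ (gmap D φ X) = X := gmap_gmap C φ hφ2 h2K hM X
  have hc'G : c' ∈ D.group K := mul_mem (map_group_le φ (Subgroup.mem_map_of_mem _ hXG)) (inv_mem hXG)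
  have hc't : Commute t c' := by
    have h1 : gmap D φ X * gmap D ι m * (gmap D φ X)⁻¹ = t := by
      conv_rhs => rw [← hφt, ht, map_mul, map_mul, map_inv, hφι]
    refine (mul_inv_eq_iff_eq_mul.mp ?_ : c' * t = t * c').symm
    rw [hc', ht]
    calc _ = gmap D φ X * gmap D ι m * (gmap D φ X)⁻¹ := by group
      _ = _ := h1
  have hc'φ : gmap D φ c' = c'⁻¹ := by rw [hc', map_mul, map_inv, hφX]; group
  obtain ⟨z, hz, czt, hzT, hzφ⟩ := descend C φ hφ2 h2K hM t a hXt.conj hXt.1 hφt hA hU (fun e' he' hfix => by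
    have h1 : e' ^ (q - 1) = 1 := mul_left_cancel₀ he' (by
      rw [← pow_succ', Nat.sub_add_cancel (by omega), ← hφ, hfix, mul_one])
    obtain ⟨x, hx⟩ := exists_pow_eq (d := q + 1) (d' := q - 1) (y := e'⁻¹) hsq.symm (by rw [inv_pow, h1, inv_one])
    exact ⟨x, by rw [hφ, mul_assoc, ← pow_succ', hx, mul_inv_cancel₀ he']⟩) hc'G hc't hc'φ
  obtain ⟨w, hw, ew⟩ := torus_h90 C hM hB hA hT φ hK hφ hzT hzφ
  have cwt : Commute t w := C.diagonal_comm hXt.1 hw
  set X' := w * z * X with hX'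
  have hX'φ : gmap D φ X' = X' := by
    rw [hX', map_mul, map_mul]
    have h1 : gmap D φ w * gmap D φ z * gmap D φ X * (w * z * X)⁻¹ = 1 := by
      rw [← ew, hc']; group
    exact mul_inv_eq_one.mp h1
  have hX'G : X' ∈ D.group K := mul_mem (mul_mem (C.diagonal_le_group hw) hz) hXG
  obtain ⟨x₀, hx₀, ex₀⟩ := LeadWork.ChevField.mem_map_of_fixed C ι φ (fun x hx => by
    exact Homocyclic.exists_preimage ι (by rw [← hq, ← hφ]; exact hx)) hM
    (LeadWork.ChevField.torusMap_injective_of_inverse hB) hX'G hX'φ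
  refine ⟨x₀, hx₀, a, ?_⟩
  have hgl : gmap D ι x₀ = X' := by
    rw [← ex₀]; exact Units.ext rfl
  have h1 : gmap D ι (x₀ * m * x₀⁻¹) = gmap D ι tF := by
    rw [map_mul, map_mul, map_inv, hgl, (htF.map C ι).unique C hXt, hX']
    calc w * z * X * gmap D ι m * (w * z * X)⁻¹ = (w * z) * t * (w * z)⁻¹ := by rw [ht]; group
      _ = t := by rw [(cwt.mul_right czt).eq.symm, mul_inv_cancel_right]
  rw [gmap_injective ι h1]
  exact htF

end Cfsg.Agent.Chars2.InvolutionClasses
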