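import Cfsg.Agent.Chars2.InvolutionClasses.Check
import Cfsg.Agent.Chars2.InvolutionClasses.Split
import Cfsg.Agent.LeadWork.ChevFieldAut

/-!
The two classes of involutions.
-/

set_option autoImplicit false
set_option linter.unusedSectionVars false

universe u v

namespace Cfsg.Agent.Chars2.InvolutionClasses

open Cfsg.Lie Cfsg.Agent.Chev Cfsg.Agent.Chars2.Homocyclic

/-- All parity lists of a given length. -/
def vecs : ℕ → List (List Bool)
  | 0 => [[]]
  | n + 1 => (vecs n).flatMap fun v => [true :: v, false :: v]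

theorem mem_vecs : ∀ v : List Bool, v ∈ vecs v.length
  | [] => List.mem_cons_self
  | b :: v => List.mem_flatMap.mpr ⟨v, mem_vecs v, by cases b <;> simp⟩

/-- Every parity other than zero lies in one of two orbits. -/
noncomputable def coverB (T : FTab) (j0 j1 : ℕ) (orb0 orb1 : List (List ℕ)) : Bool :=
  (vecs T.l).all fun v => v.all id || (orb0.map (stateT T j0)).contains v || (orb1.map (stateT T j1)).contains v

/-- An integer coprime to `q` times powers of `q`. -/
theorem coprime_prod_pow_sub_one {q : ℕ} (hq : 2 ≤ q) : ∀ {degs : List ℕ}, (∀ e ∈ degs, 0 < e) →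
    Nat.Coprime q (degs.map fun e => q ^ e - 1).prod
  | [], _ => by simp
  | e :: degs, h => by
    rw [List.map_cons, List.prod_cons]
    refine Nat.Coprime.mul_right ?_ (coprime_prod_pow_sub_one hq fun x hx => h x (List.mem_cons_of_mem _ hx))
    obtain ⟨k, hk⟩ := Nat.exists_eq_add_of_le (h e List.mem_cons_self)
    refine Nat.eq_one_of_dvd_one ?_
    have h1 := Nat.gcd_dvd_left q (q ^ e - 1)
    have h2 := Nat.gcd_dvd_right q (q ^ e - 1)
    have h3 : Nat.gcd q (q ^ e - 1) ∣ q ^ e := h1.trans (dvd_pow_self q (Nat.pos_iff_ne_zero.mp (h e List.mem_cons_self)))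
    have h4 := Nat.dvd_sub h3 h2
    rwa [Nat.sub_sub_self (Nat.one_le_pow _ _ (by omega))] at h4

theorem pow_mul_ne {q N0 N1 A0 A1 : ℕ} (hq : 2 ≤ q) (h0 : Nat.Coprime q A0) (h1 : Nat.Coprime q A1) (hN : N0 ≠ N1) :
    q ^ N0 * A0 ≠ q ^ N1 * A1 := by
  intro h
  have key : ∀ {a b A B : ℕ}, a < b → Nat.Coprime q A → q ^ a * A = q ^ b * B → False := by
    intro a b A B hab hA e
    obtain ⟨c, rfl⟩ := Nat.exists_eq_add_of_lt hab
    rw [show a + c + 1 = a + (c + 1) by omega, pow_add, mul_assoc] at e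
    have e' := Nat.eq_of_mul_eq_mul_left (Nat.pow_pos (by omega)) e
    have hd : q ∣ A := ⟨q ^ c * B, by rw [e', pow_succ']; ring⟩
    have := Nat.Coprime.eq_one_of_dvd hA hd
    omega
  rcases Nat.lt_or_gt_of_ne hN with hlt | hlt
  · exact key hlt h0 h
  · exact key hlt h1 h.symm

/-- The conclusion. -/
def TwoClasses (G : Type v) [Group G] (n0 n1 : ℕ) : Prop :=
  ∃ s t : G, orderOf s = 2 ∧ orderOf t = 2 ∧ ¬ IsConj s t ∧ (∀ u : G, orderOf u = 2 → IsConj u s ∨ IsConj u t) ∧
    Nat.card (Subgroup.centralizer ({s} : Set G)) = n0 ∧ Nat.card (Subgroup.centralizer ({t} : Set G)) = n1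

theorem card_centralizer_map {G : Type u} {G' : Type v} [Group G] [Group G'] (e : G ≃* G') (s : G) :
    Nat.card (Subgroup.centralizer ({e s} : Set G')) = Nat.card (Subgroup.centralizer ({s} : Set G)) := by
  refine (Nat.card_congr (Equiv.subtypeEquiv e.toEquiv fun g => ?_)).symm
  simp only [Subgroup.mem_centralizer_singleton_iff, MulEquiv.toEquiv_eq_coe, MulEquiv.coe_toEquiv,
    ← map_mul, e.injective.eq_iff]

theorem TwoClasses.congr {G : Type u} {G' : Type v} [Group G] [Group G'] (e : G ≃* G') {n0 n1 : ℕ}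
    (h : TwoClasses G n0 n1) : TwoClasses G' n0 n1 := by
  obtain ⟨s, t, hs, ht, hst, hu, h0, h1⟩ := h
  refine ⟨e s, e t, by rw [MulEquiv.orderOf_eq, hs], by rw [MulEquiv.orderOf_eq, ht], fun hc => hst ?_, fun u hu2 => ?_,
    by rw [card_centralizer_map, h0], by rw [card_centralizer_map, h1]⟩
  · simpa using e.symm.toMonoidHom.map_isConj hc
  · have := hu (e.symm u) (by rw [MulEquiv.orderOf_eq, hu2])
    refine this.imp (fun h => ?_) fun h => ?_ <;> simpa using e.toMonoidHom.map_isConj h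

section

variable {D : ChevalleyDatum} {T : FTab} (H : AllOK D T)
  {M : CoxeterMatrix (Fin D.rank)} (hM : CoxOK D M)
include H hM

/-- A sign element whose parity is reached by a word is conjugate to that of the node. -/
theorem conj_node {j0 : ℕ} (hj : j0 < T.l) {Q : List ℕ} (hQ : ∀ i ∈ Q, i < T.l) {F : Type} [Field F]
    {t : GL D.Idx F} {a : Fin D.rank → ZMod 2} (ht : IsSgn (AllOK.cert.{0} H) t a)
    (hs : ∀ k : Fin D.rank, evT T j0 (actT T Q (T.simp' k)) = decide (a k = 0)) :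
    ∃ n ∈ D.group F, IsSgn (AllOK.cert.{0} H) (n * t * n⁻¹) (nodeVec D j0) := by
  have B := H.basic
  have hQ' : ∀ i ∈ Q, i < D.rank := fun i hi => lt_of_lt_of_eq (hQ i hi) B.rank_eq.symm
  have he : (finWord D.rank Q).map Fin.val = Q := map_finWord hQ'
  refine ⟨(AllOK.cert.{0} H).nWordElt F Q, ?_, ?_⟩
  · exact (AllOK.cert.{0} H).monomial_le_group ((AllOK.cert.{0} H).nWordElt_mem (F := F) hQ')
  have h := ht.conj_word (AllOK.cert.{0} H) (a' := nodeVec D j0) (finWord D.rank Q) fun r hr => ?_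
  · rwa [he] at h
  rw [he, par_act _ _ hQ' hr, par]
  refine Finset.sum_congr rfl fun k _ => ?_
  congr 1
  obtain ⟨es, hlt⟩ := simp_lt_T H k.isLt
  rw [es, (act_eq_actT H hQ hlt).1]
  have h2 : par (AllOK.cert.{0} H) (nodeVec D j0) (actT T Q (T.simp' k)) = 0 ↔ a k = 0 := by
    rw [← evT_iff H hj, hs k, decide_eq_true_iff]
  rcases zmod2_cases (a k) with h0 | h0
  · rw [h0, h2.mpr h0]
  · rcases zmod2_cases (par (AllOK.cert.{0} H) (nodeVec D j0) (actT T Q (T.simp' k))) with h1 | h1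
    · rw [h2.mp h1] at h0; exact absurd h0 (by decide)
    · rw [h1, h0]

variable {wOrd : List ℕ} {wChain : List PStep}
  (hord : ∀ i < D.rank, i ∈ wOrd) (hordl : ∀ i ∈ wOrd, i < D.rank) (hwch : okPChain T wOrd wChain = true)
  {j0 : ℕ} {K0 : List ℕ} {chain0 : List PStep} {reps0 : List (List ℕ × ℕ)} {orb0 : List (List ℕ)}
  (hd0 : ClassData T j0 K0 chain0 reps0 orb0)
  (hc0 : (wChain.map fun S => S.factor 1).prod = orb0.length * (reps0.length * (chain0.map fun S => S.factor 1).prod))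
  {j1 : ℕ} {K1 : List ℕ} {chain1 : List PStep} {reps1 : List (List ℕ × ℕ)} {orb1 : List (List ℕ)}
  (hd1 : ClassData T j1 K1 chain1 reps1 orb1)
  (hc1 : (wChain.map fun S => S.factor 1).prod = orb1.length * (reps1.length * (chain1.map fun S => S.factor 1).prod))
  (hcov : coverB T j0 j1 orb0 orb1 = true)
  {B : Matrix (Fin D.rank) (Fin D.rank) ℤ} (hB : cartMat D * B = 1)
  (hA : ∀ i j : Fin D.rank, i ≠ j → D.cartan i (D.simple j) ≠ 0 →
      ∃ r < D.nroots, ∀ k : Fin D.rank, T.coefI r k = (if k = i then 1 else 0) + if k = j then 1 else 0)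
  (hT : ∀ (K : Type) [Field K] [Fintype K], Nat.card (D.diagonalSubgroup K) = (Fintype.card K - 1) ^ D.rank)
  {N0 : ℕ} (hN0 : posEvenT T j0 = N0) {degs0 : List ℕ} (hp0 : ∀ e ∈ degs0, 0 < e)
  (hid0 : chainIdentB (⟨[], [], reps0.map Prod.snd, []⟩ :: chain0) D.rank degs0 = true)
  {N1 : ℕ} (hN1 : posEvenT T j1 = N1) {degs1 : List ℕ} (hp1 : ∀ e ∈ degs1, 0 < e)
  (hid1 : chainIdentB (⟨[], [], reps1.map Prod.snd, []⟩ :: chain1) D.rank degs1 = true)
  (hN : N0 ≠ N1)
include hord hordl hwch hd0 hc0 hd1 hc1 hcov hB hA hT hN0 hp0 hid0 hN1 hp1 hid1 hN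

/-- Exactly two classes of involutions, over a field in `Type`. -/
theorem twoClasses {F : Type} [Field F] [Fintype F] (h2 : (2 : F) ≠ 0) :
    TwoClasses ↥(D.group F) (Fintype.card F ^ N0 * (degs0.map fun e => Fintype.card F ^ e - 1).prod)
      (Fintype.card F ^ N1 * (degs1.map fun e => Fintype.card F ^ e - 1).prod) := by
  classical
  set C := AllOK.cert.{0} H with hC
  have hA' : ∀ i j : Fin D.rank, i ≠ j → D.cartan i (D.simple j) ≠ 0 →
      ∃ r < D.nroots, ∀ k : Fin D.rank, C.coef r k = (if k = i then 1 else 0) + if k = j then 1 else 0 := hA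
  obtain ⟨a0, ha0⟩ := exists_sgn C hB (nodeVec D j0) (K := F)
  obtain ⟨a1, ha1⟩ := exists_sgn C hB (nodeVec D j1) (K := F)
  have hne : ∀ {j : ℕ} (_ : j < T.l) {x : GL D.Idx F}, IsSgn C x (nodeVec D j) → x ≠ 1 := by
    intro j hj x hx e
    have hj' : j < D.rank := lt_of_lt_of_eq hj H.basic.rank_eq.symm
    have hr := C.simple_lt j hj'
    have h1 := dMat_entry hx.2 hr
    rw [e, dMat_entry (χ := fun _ => (1 : F)) (by rw [Units.val_one]; exact dMat_one.symm) hr,
      par_simple C _ ⟨j, hj'⟩, nodeVec, if_pos rfl, sg_one] at h1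
    exact h2 (by linear_combination h1)
  set s : ↥(D.group F) := ⟨a0, C.diagonal_le_group ha0.1⟩ with hs
  set t : ↥(D.group F) := ⟨a1, C.diagonal_le_group ha1.1⟩ with ht
  have hord2 : ∀ {j : ℕ} (_ : j < T.l) {x : GL D.Idx F} (hx : IsSgn C x (nodeVec D j)) (hm : x ∈ D.group F),
      orderOf (⟨x, hm⟩ : ↥(D.group F)) = 2 := fun {j} hj {x} hx hm =>
    orderOf_eq_prime (by rw [pow_two]; exact Subtype.ext (hx.sq C)) fun e => hne hj hx (congrArg Subtype.val e)
  have hcard : ∀ (x : ↥(D.group F)), Nat.card (Subgroup.centralizer ({x} : Set ↥(D.group F))) =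
      Nat.card {g : GL D.Idx F // g ∈ D.group F ∧ Commute (x : GL D.Idx F) g} := fun x =>
    Nat.card_congr
      { toFun := fun g => ⟨g.1.1, g.1.2, by
          have := Subgroup.mem_centralizer_singleton_iff.mp g.2
          exact (congrArg Subtype.val this).symm⟩
        invFun := fun g => ⟨⟨g.1, g.2.1⟩, Subgroup.mem_centralizer_singleton_iff.mpr (Subtype.ext g.2.2.eq.symm)⟩
        left_inv := fun _ => rfl
        right_inv := fun _ => rfl }
  have hTF : Nat.card (D.diagonalSubgroup F) = (Fintype.card F - 1) ^ D.rank := hT F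
  have hn0 := card_cent_node H hM hord hordl hwch hd0 hc0 hN0 hid0 h2 hTF ha0
  have hn1 := card_cent_node H hM hord hordl hwch hd1 hc1 hN1 hid1 h2 hTF ha1
  have hq : 2 ≤ Fintype.card F := Fintype.one_lt_card
  refine ⟨s, t, hord2 hd0.hj ha0 _, hord2 hd1.hj ha1 _, fun hc => ?_, fun u hu => ?_,
    (hcard s).trans hn0, (hcard t).trans hn1⟩
  · obtain ⟨g, hg⟩ := isConj_iff.mp hc
    have h := card_centralizer_map (MulAut.conj g) s
    rw [MulAut.conj_apply, hg, hcard s, hcard t] at h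
    rw [hn0, hn1] at h
    exact pow_mul_ne hq (coprime_prod_pow_sub_one hq hp0) (coprime_prod_pow_sub_one hq hp1) hN h.symm
  have hu1 : (u : GL D.Idx F) * u = 1 := by
    have h := pow_orderOf_eq_one u
    rw [hu, pow_two] at h
    exact congrArg Subtype.val h
  obtain ⟨x, hx, a, ha⟩ := exists_conj_sgn C hM hB hA' hT h2 u.2 hu1
  let f : ℕ → Bool := fun k => if h : k < D.rank then decide (a ⟨k, h⟩ = 0) else true
  have hv : ((List.range T.l).map f) ∈ vecs T.l := by
    have := mem_vecs ((List.range T.l).map f)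
    rwa [List.length_map, List.length_range] at this
  have hf : ∀ k : Fin D.rank, f k = decide (a k = 0) := fun k => dif_pos k.isLt
  have hc := List.all_eq_true.mp hcov _ hv
  simp only [Bool.or_eq_true, List.contains_iff_mem] at hc
  have hfin : ∀ {j : ℕ} (_ : j < T.l) {Q : List ℕ}, (∀ i ∈ Q, i < T.l) → stateT T j Q = (List.range T.l).map f →
      ∀ {y : GL D.Idx F}, IsSgn C y (nodeVec D j) → ∀ hy : y ∈ D.group F, IsConj u (⟨y, hy⟩ : ↥(D.group F)) := by
    intro j hj Q hQ e y hy' hy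
    obtain ⟨n, hn, hns⟩ := conj_node H hM hj hQ ha fun k => by
      rw [← hf k]
      exact List.map_inj_left.mp e k (List.mem_range.mpr (lt_of_lt_of_eq k.isLt H.basic.rank_eq))
    refine isConj_iff.mpr ⟨⟨n * x, mul_mem hn hx⟩, Subtype.ext ?_⟩
    show n * x * (u : GL D.Idx F) * (n * x)⁻¹ = y
    rw [← IsSgn.unique C hns hy']
    group
  rcases hc with (hc | hc) | hc
  · exfalso
    have hz : a = 0 := funext fun k => by
      have := List.all_eq_true.mp hc (f k) (List.mem_map_of_mem (List.mem_range.mpr (lt_of_lt_of_eq k.isLt H.basic.rank_eq)))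
      rw [id, hf k, decide_eq_true_iff] at this
      exact this
    rw [hz] at ha
    have h1 := ha.unique C (isSgn_one C)
    have h3 : (u : GL D.Idx F) = 1 := by
      rw [← mul_inv_eq_one] at h1 ⊢
      simpa using h1
    have : orderOf u = 1 := orderOf_eq_one_iff.mpr (Subtype.ext h3)
    omega
  · obtain ⟨Q, hQ, e⟩ := List.mem_map.mp hc
    exact Or.inl (hfin hd0.hj (fun i hi => Nat.blt_eq.mp (List.all_eq_true.mp (List.all_eq_true.mp hd0.horb Q hQ) i hi))
      e ha0 _)
  · obtain ⟨Q, hQ, e⟩ := List.mem_map.mp hc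
    exact Or.inr (hfin hd1.hj (fun i hi => Nat.blt_eq.mp (List.all_eq_true.mp (List.all_eq_true.mp hd1.horb Q hQ) i hi))
      e ha1 _)

end

/-- Transport from a field in `Type`. -/
theorem twoClasses_of_type {D : ChevalleyDatum} {n0 n1 : ℕ → ℕ}
    (h : ∀ (F : Type) [Field F] [Fintype F], (2 : F) ≠ 0 → TwoClasses ↥(D.group F) (n0 (Fintype.card F)) (n1 (Fintype.card F)))
    {F : Type u} [Field F] [Fintype F] (hF : Odd (Fintype.card F)) :
    TwoClasses ↥(D.group F) (n0 (Fintype.card F)) (n1 (Fintype.card F)) := by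
  letI : Fintype (Shrink.{0} F) := Fintype.ofEquiv F (equivShrink.{0} F)
  have hcard : Fintype.card (Shrink.{0} F) = Fintype.card F := (Fintype.card_congr (equivShrink.{0} F)).symm
  let e : Shrink.{0} F ≃+* F := Shrink.ringEquiv.{0} F
  have h2 : (2 : Shrink.{0} F) ≠ 0 := fun h0 => by
    have h1 : (2 : F) = 0 := by rw [← map_ofNat e 2, h0, map_zero]
    have hchar : ringChar F = 2 := by
      have h3 : ringChar F ∣ 2 := ringChar.dvd (by exact_mod_cast h1)
      exact ((Nat.prime_two.eq_one_or_self_of_dvd _ h3).resolve_left CharP.ringChar_ne_one)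
    exact Nat.not_even_iff_odd.mpr hF (Nat.even_iff.mpr (FiniteField.even_card_of_char_two hchar))
  have := (h (Shrink.{0} F) h2).congr (LeadWork.ChevField.groupEquiv D e)
  rwa [hcard] at this

end Cfsg.Agent.Chars2.InvolutionClasses
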