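import Cfsg.Agent.Chars2.InvolutionClasses.Classes
import Cfsg.Agent.Chars2.InvolutionClasses.Data
import Cfsg.Agent.Chev.OrdersByType

/-!
The involution classes in type E8.
-/

set_option autoImplicit false
set_option maxRecDepth 100000
set_option maxHeartbeats 2000000

universe u

namespace Cfsg.Agent.Chars2.InvolutionClasses

open Cfsg.Lie Cfsg.Agent.Chev

theorem classDataE8D8 : ClassData tabE8 0 ordE8D8 chainE8D8 repsE8D8 orbE8D8 where
  hj := by decide +kernel
  hK := by decide +kernel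
  hchain := by decide +kernel
  hreps := by decide +kernel
  hdist := by decide +kernel
  horb := by decide +kernel
  horbd := by decide +kernel
  hne := by decide +kernel

theorem classDataE8E7A1 : ClassData tabE8 7 ordE8E7A1 chainE8E7A1 repsE8E7A1 orbE8E7A1 where
  hj := by decide +kernel
  hK := by decide +kernel
  hchain := by decide +kernel
  hreps := by decide +kernel
  hdist := by decide +kernel
  horb := by decide +kernel
  horbd := by decide +kernel
  hne := by decide +kernel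

theorem coverE8 : coverB tabE8 0 7 orbE8D8 orbE8E7A1 = true := by decide +kernel

/-- The sum of two joined fundamental roots is a root. -/
theorem joinedE8 : ∀ i j : Fin chevE8.rank, i ≠ j → chevE8.cartan i (chevE8.simple j) ≠ 0 →
    ∃ r < chevE8.nroots, ∀ k : Fin chevE8.rank, tabE8.coefI r k = (if k = i then 1 else 0) + if k = j then 1 else 0 := by
  decide +kernel

theorem twoClassesE8 {F : Type u} [Field F] [Fintype F] (hF : Odd (Fintype.card F)) :
    TwoClasses ↥(chevE8.group F) (Fintype.card F ^ 56 * (([2, 4, 6, 8, 10, 12, 14, 8] : List ℕ).map fun e => Fintype.card F ^ e - 1).prod)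
      (Fintype.card F ^ 64 * (([2, 2, 6, 8, 10, 12, 14, 18] : List ℕ).map fun e => Fintype.card F ^ e - 1).prod) :=
  twoClasses_of_type (n0 := fun q => q ^ 56 * (([2, 4, 6, 8, 10, 12, 14, 8] : List ℕ).map fun e => q ^ e - 1).prod)
    (n1 := fun q => q ^ 64 * (([2, 2, 6, 8, 10, 12, 14, 18] : List ℕ).map fun e => q ^ e - 1).prod)
    (fun F _ _ h2 => twoClasses allOKE8 coxE8 (wOrd := wOrdE8) (wChain := wChainE8) (by decide +kernel) (by decide +kernel)
      wChainE8_ok classDataE8D8 (by decide +kernel) classDataE8E7A1 (by decide +kernel) coverE8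
      (B := (!![0, 0, 0, 0, 0, 0, 1, -2; 0, 0, 0, 0, 0, 0, 2, -3; 1, 0, 0, 0, 0, 0, 2, -4; 0, 1, 0, 0, 0, 0, 4, -6; 0, 0, 1, 0, 0, 0, 4, -5; 0, 0, 0, 1, 0, 0, 4, -4; 0, 0, 0, 0, 1, 0, 4, -3; 0, 0, 0, 0, 0, 1, 4, -2] : Matrix (Fin 8) (Fin 8) ℤ) * (!![-1, 0, 0, 0, 0, 0, 0, 0; 0, -1, 0, 0, 0, 0, 0, 0; 1, -2, 0, -1, 0, 0, 0, 0; 2, -3, 0, -2, -1, 0, 0, 0; 3, -4, 0, -3, -2, -1, 0, 0; 4, -5, 0, -4, -3, -2, -1, 0; -2, 1, -1, 0, 0, 0, 0, 0; -3, -2, -4, -5, -4, -3, -2, -1] : Matrix (Fin 8) (Fin 8) ℤ)) (by decide +kernel) joinedE8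
      (fun K _ _ => (one_mul _).symm.trans (card_diagonalE8 (F := K)))
      (by decide +kernel) (by decide +kernel) (by decide +kernel)
      (by decide +kernel) (by decide +kernel) (by decide +kernel) (by decide +kernel) h2)
    hF

end Cfsg.Agent.Chars2.InvolutionClasses
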