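import Cfsg.Agent.Chars2.InvolutionClasses.Classes
import Cfsg.Agent.Chars2.InvolutionClasses.Data
import Cfsg.Agent.Chev.OrdersByType

/-!
The involution classes in type F4.
-/

set_option autoImplicit false
set_option maxRecDepth 100000
set_option maxHeartbeats 2000000

universe u

namespace Cfsg.Agent.Chars2.InvolutionClasses

open Cfsg.Lie Cfsg.Agent.Chev

theorem classDataF4B4 : ClassData tabF4 0 ordF4B4 chainF4B4 repsF4B4 orbF4B4 where
  hj := by decide +kernel
  hK := by decide +kernel
  hchain := by decide +kernel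
  hreps := by decide +kernel
  hdist := by decide +kernel
  horb := by decide +kernel
  horbd := by decide +kernel
  hne := by decide +kernel

theorem classDataF4C3A1 : ClassData tabF4 3 ordF4C3A1 chainF4C3A1 repsF4C3A1 orbF4C3A1 where
  hj := by decide +kernel
  hK := by decide +kernel
  hchain := by decide +kernel
  hreps := by decide +kernel
  hdist := by decide +kernel
  horb := by decide +kernel
  horbd := by decide +kernel
  hne := by decide +kernel

theorem coverF4 : coverB tabF4 0 3 orbF4B4 orbF4C3A1 = true := by decide +kernel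

/-- The sum of two joined fundamental roots is a root. -/
theorem joinedF4 : ∀ i j : Fin chevF4.rank, i ≠ j → chevF4.cartan i (chevF4.simple j) ≠ 0 →
    ∃ r < chevF4.nroots, ∀ k : Fin chevF4.rank, tabF4.coefI r k = (if k = i then 1 else 0) + if k = j then 1 else 0 := by
  decide +kernel

theorem twoClassesF4 {F : Type u} [Field F] [Fintype F] (hF : Odd (Fintype.card F)) :
    TwoClasses ↥(chevF4.group F) (Fintype.card F ^ 16 * (([2, 4, 6, 8] : List ℕ).map fun e => Fintype.card F ^ e - 1).prod)
      (Fintype.card F ^ 10 * (([2, 2, 4, 6] : List ℕ).map fun e => Fintype.card F ^ e - 1).prod) :=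
  twoClasses_of_type (n0 := fun q => q ^ 16 * (([2, 4, 6, 8] : List ℕ).map fun e => q ^ e - 1).prod)
    (n1 := fun q => q ^ 10 * (([2, 2, 4, 6] : List ℕ).map fun e => q ^ e - 1).prod)
    (fun F _ _ h2 => twoClasses allOKF4 coxF4 (wOrd := wOrdF4) (wChain := wChainF4) (by decide +kernel) (by decide +kernel)
      wChainF4_ok classDataF4B4 (by decide +kernel) classDataF4C3A1 (by decide +kernel) coverF4
      (B := (!![0, 0, 1, -2; 1, 0, 2, -4; 0, 0, 2, -3; 0, 1, 2, -2] : Matrix (Fin 4) (Fin 4) ℤ) * (!![-1, 0, 0, 0; 1, 0, -1, 0; -2, -1, 0, 0; -2, -2, -2, -1] : Matrix (Fin 4) (Fin 4) ℤ)) (by decide +kernel) joinedF4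
      (fun K _ _ => (one_mul _).symm.trans (card_diagonalF4 (F := K)))
      (by decide +kernel) (by decide +kernel) (by decide +kernel)
      (by decide +kernel) (by decide +kernel) (by decide +kernel) (by decide +kernel) h2)
    hF

end Cfsg.Agent.Chars2.InvolutionClasses
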