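import Cfsg.Agent.Chars2.InvolutionClasses.Weyl
import Cfsg.Agent.Chars2.Homocyclic.Torus
import Cfsg.Agent.Chars2.Homocyclic.Frob

/-!
Twisted involutions in the centraliser of a sign element are conjugate into the torus.
-/

set_option autoImplicit false
set_option linter.unusedSectionVars false

universe u

namespace Cfsg.Agent.Chars2.InvolutionClasses

open Cfsg.Lie Cfsg.Agent.Chev Cfsg.Agent.Chars2.Homocyclic

variable {D : ChevalleyDatum} {K : Type} [Field K] (C : Cert.{0} D)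
include C

theorem xu_inj {r : ℕ} (hr : r < D.nroots) {x y : K} (h : C.xu r x = C.xu r y) : x = y := by
  refine sub_eq_zero.mp (C.xu_eq_one hr ?_)
  rw [sub_eq_add_neg, ← C.xu_add, h, C.xu_add, add_neg_cancel, C.xu_zero]

/-- Conjugation by a word and a diagonal element on a pair of opposite root groups. -/
theorem pair_conj (L : List (Fin D.rank)) {h : GL D.Idx K} (hh : h ∈ D.diagonalSubgroup K) {r : ℕ}
    (hr : r < D.nroots) : ∃ c : K, c ≠ 0 ∧
      (∀ x, h * C.nWordElt K (L.map Fin.val) * C.xu r x * (h * C.nWordElt K (L.map Fin.val))⁻¹ =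
        C.xu (act D (L.map Fin.val) r) (c * x)) ∧
      ∀ x, h * C.nWordElt K (L.map Fin.val) * C.xu (D.neg r) x * (h * C.nWordElt K (L.map Fin.val))⁻¹ =
        C.xu (D.neg (act D (L.map Fin.val) r)) (c⁻¹ * x) := by
  have hword : ∀ L : List ℕ, (∀ i ∈ L, i < D.rank) → ∃ c : K, c ≠ 0 ∧
      (∀ x, C.nWordElt K L * C.xu r x * (C.nWordElt K L)⁻¹ = C.xu (act D L r) (c * x)) ∧
      ∀ x, C.nWordElt K L * C.xu (D.neg r) x * (C.nWordElt K L)⁻¹ = C.xu (D.neg (act D L r)) (c⁻¹ * x) := by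
    intro L
    induction L with
    | nil => exact fun _ => ⟨1, one_ne_zero, fun x => by simp [Cert.nWordElt, act_nil],
        fun x => by simp [Cert.nWordElt, act_nil]⟩
    | cons a L ih =>
      intro hL
      have ha := hL a List.mem_cons_self
      have hL' : ∀ i ∈ L, i < D.rank := fun i hi => hL i (List.mem_cons_of_mem _ hi)
      obtain ⟨c, hc, e1, e2⟩ := ih hL'
      have hlt := C.act_lt hL' hr
      have key : ∀ (s : ℕ) (x : K), C.nWordElt K (a :: L) * C.xu s x * (C.nWordElt K (a :: L))⁻¹ =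
          C.nu (D.simple a) 1 * (C.nWordElt K L * C.xu s x * (C.nWordElt K L)⁻¹) * (C.nu (D.simple a) 1)⁻¹ := fun s x => by
        rw [C.nWordElt_cons]; group
      rcases C.eta_sign a ha _ hlt with he | he
      · have he' : C.eta a (D.neg (act D L r)) = 1 := by
          have := C.eta_neg a ha _ hlt; rw [he, one_mul] at this; exact this
        refine ⟨c, hc, fun x => ?_, fun x => ?_⟩
        · rw [key, e1, C.nu_conj ha hlt, mul_inv_cancel_right, act_cons, he, Int.cast_one, one_mul]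
        · rw [key, e2, C.nu_conj ha (C.neg_lt _ hlt), mul_inv_cancel_right, act_cons, C.refl_neg ha hlt, he',
            Int.cast_one, one_mul]
      · have he' : C.eta a (D.neg (act D L r)) = -1 := by
          have := C.eta_neg a ha _ hlt; rw [he] at this; omega
        refine ⟨-c, neg_ne_zero.mpr hc, fun x => ?_, fun x => ?_⟩
        · rw [key, e1, C.nu_conj ha hlt, mul_inv_cancel_right, act_cons, he, Int.cast_neg, Int.cast_one]
          congr 1; ring
        · rw [key, e2, C.nu_conj ha (C.neg_lt _ hlt), mul_inv_cancel_right, act_cons, C.refl_neg ha hlt, he',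
            Int.cast_neg, Int.cast_one, inv_neg]
          congr 1; ring
  have hL := C.fin_word_lt L
  obtain ⟨c, hc, e1, e2⟩ := hword _ hL
  obtain ⟨χ, hχ, hne, e⟩ := C.diagonal_char hh
  have hlt := C.act_lt hL hr
  have hd : ∀ s, s < D.nroots → ∀ x, h * C.xu s x * h⁻¹ = C.xu s (χ s * x) := fun s hs x => by
    rw [show h * C.xu s x = C.xu s (χ s * x) * h from Units.ext (by simp [e, C.dMat_conj hχ hs x]),
      mul_inv_cancel_right]
  have hneg : χ (D.neg (act D (L.map Fin.val) r)) = (χ (act D (L.map Fin.val) r))⁻¹ :=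
    eq_inv_of_mul_eq_one_left (hχ.neg _ hlt)
  have key : ∀ y : GL D.Idx K, h * C.nWordElt K (L.map Fin.val) * y * (h * C.nWordElt K (L.map Fin.val))⁻¹ =
      h * (C.nWordElt K (L.map Fin.val) * y * (C.nWordElt K (L.map Fin.val))⁻¹) * h⁻¹ := fun y => by group
  refine ⟨χ (act D (L.map Fin.val) r) * c, mul_ne_zero (hne _) hc, fun x => ?_, fun x => ?_⟩
  · rw [key, e1, hd _ hlt, mul_assoc]
  · rw [key, e2, hd _ (C.neg_lt _ hlt), hneg, mul_inv, mul_assoc]

/-- A product of a word and a diagonal element. -/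
def MW (g : GL D.Idx K) (L : List (Fin D.rank)) : Prop :=
  ∃ h ∈ D.diagonalSubgroup K, g = h * C.nWordElt K (L.map Fin.val)

theorem mw_word (L : List (Fin D.rank)) : MW C (C.nWordElt K (L.map Fin.val)) L :=
  ⟨1, one_mem _, (one_mul _).symm⟩

theorem mw_diag {h : GL D.Idx K} (hh : h ∈ D.diagonalSubgroup K) : MW C h [] :=
  ⟨h, hh, (mul_one h).symm⟩

theorem mw_mul {g g' : GL D.Idx K} {L L' : List (Fin D.rank)} (h : MW C g L) (h' : MW C g' L') :
    MW C (g * g') (L ++ L') := by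
  obtain ⟨a, ha, rfl⟩ := h
  obtain ⟨b, hb, rfl⟩ := h'
  refine ⟨a * (C.nWordElt K (L.map Fin.val) * b * (C.nWordElt K (L.map Fin.val))⁻¹),
    mul_mem ha (C.monomial_conj_diagonal (C.nWordElt_mem (C.fin_word_lt L)) hb), ?_⟩
  rw [show C.nWordElt K ((L ++ L').map Fin.val) = C.nWordElt K (L.map Fin.val) * C.nWordElt K (L'.map Fin.val) by
    simp [Cert.nWordElt, List.map_append, List.prod_append]]
  group

theorem mw_inv {M : CoxeterMatrix (Fin D.rank)} (hM : CoxOK D M) {g : GL D.Idx K} {L : List (Fin D.rank)}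
    (h : MW C g L) : MW C g⁻¹ L.reverse := by
  obtain ⟨a, ha, rfl⟩ := h
  have hid : ∀ r < D.nroots, act D ((L ++ L.reverse).map Fin.val) r = r := fun r hr => by
    rw [List.map_append, act_append, List.map_reverse, act_reverse_right C (C.fin_word_lt L) hr]
  have hd := C.nWordElt_mem_diagonal (F := K) hM hid
  rw [show C.nWordElt K ((L ++ L.reverse).map Fin.val) = C.nWordElt K (L.map Fin.val) *
    C.nWordElt K (L.reverse.map Fin.val) by simp [Cert.nWordElt, List.map_append, List.prod_append]] at hd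
  set P := C.nWordElt K (L.map Fin.val)
  set Q := C.nWordElt K (L.reverse.map Fin.val)
  have h1 : MW C (Q * ((P * Q)⁻¹ * a⁻¹)) (L.reverse ++ []) :=
    mw_mul C (mw_word C _) (mw_diag C (mul_mem (inv_mem hd) (inv_mem ha)))
  rwa [List.append_nil, show Q * ((P * Q)⁻¹ * a⁻¹) = (a * P)⁻¹ by group] at h1

/-- The monomial element of a root. -/
theorem mw_nu {M : CoxeterMatrix (Fin D.rank)} (hM : CoxOK D M) (P : List (Fin D.rank)) (i : Fin D.rank) {r : ℕ}
    (hP : act D (P.map Fin.val) (D.simple i) = r) {s : K} (hs : s ≠ 0) :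
    ∃ L, MW C (C.nu r s) L ∧ ∀ x < D.nroots,
      act D (L.map Fin.val) x = act D ((P ++ i :: P.reverse).map Fin.val) x := by
  have hr : r < D.nroots := hP ▸ C.act_lt (C.fin_word_lt P) (C.simple_lt i i.isLt)
  have hi : MW C (C.nu (D.simple i) (1 : K)) [i] := by
    have := mw_word C (K := K) [i]
    simpa [Cert.nWordElt] using this
  have hMx : ∀ x, act D ((P ++ i :: P.reverse).map Fin.val) x =
      act D (P.map Fin.val) (D.reflectRoot i (act D (P.reverse.map Fin.val) x)) := fun x => by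
    rw [List.map_append, List.map_cons, act_append, act_cons]
  have hsplit : C.nu r s = C.hu r s * C.nu r 1 := by
    rw [C.hu_eq, show C.nu r (-1 : K) = (C.nu r 1)⁻¹ from (C.nu_inv r 1).symm, inv_mul_cancel_right]
  have h1 := C.nWordElt_conj_nu (F := K) (C.fin_word_lt P) (C.simple_lt i i.isLt)
  rw [hP] at h1
  rcases h1 with h1 | h1
  · refine ⟨[] ++ ((P ++ [i]) ++ P.reverse), ?_, fun x _ => by
      rw [List.nil_append, List.map_append, List.map_append, act_append, act_append, hMx]; rfl⟩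
    rw [hsplit, ← h1]
    exact mw_mul C (mw_diag C (C.hu_simple_mem_diagonal hr hs))
      (mw_mul C (mw_mul C (mw_word C P) hi) (mw_inv C hM (mw_word C P)))
  · refine ⟨[] ++ ((P ++ [i]) ++ P.reverse).reverse, ?_, fun x _ => by
      rw [List.nil_append, show ((P ++ [i]) ++ P.reverse).reverse = (P ++ [i]) ++ P.reverse by simp,
        List.map_append, List.map_append, act_append, act_append, hMx]; rfl⟩
    rw [hsplit, show C.nu r (1 : K) = (C.nWordElt K (P.map Fin.val) * C.nu (D.simple i) 1 *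
      (C.nWordElt K (P.map Fin.val))⁻¹)⁻¹ by rw [h1, inv_inv]]
    exact mw_mul C (mw_diag C (C.hu_simple_mem_diagonal hr hs))
      (mw_inv C hM (mw_mul C (mw_mul C (mw_word C P) hi) (mw_inv C hM (mw_word C P))))

variable [Fintype K] (φ : K →+* K)

/-- A `p`-element of the Borel subgroup is unipotent. -/
theorem unip_of_pow {b : GL D.Idx K} (hb : b ∈ D.borelSubgroup K) {m : ℕ}
    (h : b ^ Fintype.card K ^ m = 1) : b ∈ D.posUnipotent K := by
  classical
  obtain ⟨a, ha, d, hd, rfl⟩ := C.mem_borel.mp hb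
  have hpow : ∀ k : ℕ, ∃ a' ∈ D.posUnipotent K, (a * d) ^ k = a' * d ^ k := by
    intro k
    induction k with
    | zero => exact ⟨1, one_mem _, by simp⟩
    | succ k ih =>
      obtain ⟨a', ha', e⟩ := ih
      refine ⟨a' * (d ^ k * a * (d ^ k)⁻¹), mul_mem ha'
        ((Subgroup.mem_normalizer_iff.mp (C.posUnipotent_normalised (pow_mem hd k)) a).mp ha), ?_⟩
      rw [pow_succ, e, pow_succ]; group
  obtain ⟨a', ha', e⟩ := hpow (Fintype.card K ^ m)
  rw [h] at e
  have h1 : d ^ Fintype.card K ^ m = 1 := by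
    have hmem : d ^ Fintype.card K ^ m ∈ (⊥ : Subgroup (GL D.Idx K)) := by
      rw [← C.posUnipotent_inf_diagonal]
      refine Subgroup.mem_inf.mpr ⟨?_, pow_mem hd _⟩
      rw [eq_inv_of_mul_eq_one_right e.symm]
      exact inv_mem ha'
    exact Subgroup.mem_bot.mp hmem
  obtain ⟨χ, -, hne, hχ⟩ := C.diagonal_char hd
  have h2 : d ^ (Fintype.card K - 1) = 1 := by
    refine Units.ext ?_
    rw [Units.val_pow_eq_pow_val, hχ, dMat_pow, Units.val_one, ← dMat_one]
    exact dMat_congr fun x _ => by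
      rw [Pi.pow_apply, Pi.one_apply]; exact FiniteField.pow_card_sub_one_eq_one _ (hne x)
  have hd1 : d = 1 := by
    have h3 := Nat.dvd_gcd (orderOf_dvd_of_pow_eq_one h1) (orderOf_dvd_of_pow_eq_one h2)
    have hco : Nat.Coprime (Fintype.card K ^ m) (Fintype.card K - 1) := by
      refine Nat.Coprime.pow_left _ ?_
      have := Fintype.one_lt_card (α := K)
      rw [Nat.coprime_self_sub_right (by omega)]
      exact Nat.coprime_one_right _
    rw [hco.gcd_eq_one, Nat.dvd_one, orderOf_eq_one_iff] at h3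
    exact h3
  rw [hd1, mul_one]; exact ha

variable (hφ2 : ∀ x, φ (φ x) = x) (h2 : (2 : K) ≠ 0) {M : CoxeterMatrix (Fin D.rank)} (hM : CoxOK D M)
  (t : GL D.Idx K)
include hφ2 h2 hM

theorem gmap_gmap (g : GL D.Idx K) : gmap D φ (gmap D φ g) = g := by
  refine Units.ext (Matrix.ext fun i j => ?_)
  simp only [coe_gmap, Matrix.map_apply]
  exact hφ2 _

theorem twist_inv {c : GL D.Idx K} (hc : gmap D φ c = c⁻¹) (x : GL D.Idx K) :
    gmap D φ (gmap D φ x * c * x⁻¹) = (gmap D φ x * c * x⁻¹)⁻¹ := by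
  rw [map_mul _ (gmap D φ x * c), map_mul _ (gmap D φ x) c, map_inv, gmap_gmap C φ hφ2 h2 hM, hc]; group

/-- A twisted involution `m u` is twisted conjugate to `m`. -/
theorem reduce {L : List (Fin D.rank)} {h u : GL D.Idx K} (hh : h ∈ D.diagonalSubgroup K)
    (hu : u ∈ D.posUnipotent K) (hcu : Commute t u)
    (hφ : gmap D φ (h * C.nWordElt K (L.map Fin.val) * u) = (h * C.nWordElt K (L.map Fin.val) * u)⁻¹) :
    (∀ r < D.nroots, act D (L.map Fin.val) (act D (L.map Fin.val) r) = r) ∧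
      gmap D φ (h * C.nWordElt K (L.map Fin.val)) = (h * C.nWordElt K (L.map Fin.val))⁻¹ ∧
      ∃ a ∈ D.group K, Commute t a ∧
        gmap D φ a * (h * C.nWordElt K (L.map Fin.val) * u) * a⁻¹ = h * C.nWordElt K (L.map Fin.val) := by
  set n := C.nWordElt K (L.map Fin.val) with hn
  have hnN : n ∈ D.monomialSubgroup K := C.nWordElt_mem (C.fin_word_lt L)
  have hφn : gmap D φ n = n := gmap_nWordElt C C φ _
  have hφu : gmap D φ u ∈ D.posUnipotent K := map_pos_le φ (Subgroup.mem_map_of_mem _ hu)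
  have hφh : gmap D φ h ∈ D.diagonalSubgroup K := map_diagonal_le φ (Subgroup.mem_map_of_mem _ hh)
  obtain ⟨b, hb, u2, hu2, eb⟩ := C.exists_canonical hM hnN (g := n * u)
    ⟨1, one_mem _, u, C.pos_le_borel hu, by rw [one_mul]⟩
  have hu2U : u2 ∈ D.posUnipotent K := C.span_mono (fun x hx => hx.1) hu2
  have hφb : gmap D φ (h * b) ∈ D.borelSubgroup K := by
    obtain ⟨a, ha, d, hd, e⟩ := C.mem_borel.mp (mul_mem (C.diagonal_le_borel hh) hb)
    rw [← e, map_mul]
    exact mul_mem (C.pos_le_borel (map_pos_le φ (Subgroup.mem_map_of_mem _ ha)))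
      (C.diagonal_le_borel (map_diagonal_le φ (Subgroup.mem_map_of_mem _ hd)))
  have e0 : gmap D φ (h * b) * n * gmap D φ u2 = u⁻¹ * n⁻¹ * h⁻¹ := by
    rw [← hφn, ← map_mul, ← map_mul, hφn, mul_assoc h b n, mul_assoc h (b * n) u2, ← eb, ← mul_assoc, hφ]
    group
  have hφu2 : gmap D φ u2 ∈ spanGroup D K (Inverts D K n) := map_span_le _ φ (Subgroup.mem_map_of_mem _ hu2)
  have hd : n⁻¹ * n⁻¹ ∈ D.diagonalSubgroup K := by
    refine C.inCell_unique hM hnN (inv_mem hnN) ⟨u * gmap D φ (h * b), mul_mem (C.pos_le_borel hu) hφb,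
      gmap D φ u2 * h, mul_mem (C.pos_le_borel (map_pos_le φ (Subgroup.mem_map_of_mem _ hu2U)))
        (C.diagonal_le_borel hh), ?_⟩
    calc n⁻¹ = u * (u⁻¹ * n⁻¹ * h⁻¹) * h := by group
      _ = _ := by rw [← e0]; group
  have hu21 : u2 = 1 := by
    have hd2 : u⁻¹ * (n * (n⁻¹ * n⁻¹ * h⁻¹) * n⁻¹) ∈ D.borelSubgroup K :=
      mul_mem (inv_mem (C.pos_le_borel hu))
        (C.diagonal_le_borel (C.monomial_conj_diagonal hnN (mul_mem hd (inv_mem hh))))
    obtain ⟨-, e⟩ := C.canonical_unique hφb hd2 hφu2 (one_mem _) (e0.trans (by group))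
    exact gmap_injective φ (e.trans (map_one _).symm)
  rw [hu21, mul_one] at eb
  have hb' : n * u * n⁻¹ = b := by rw [eb, mul_inv_cancel_right]
  set m := h * n with hm
  set b' := m * u * m⁻¹ with hb'def
  have hbB : b' ∈ D.borelSubgroup K := by
    rw [show b' = h * b * h⁻¹ by rw [← hb', hb'def, hm]; group]
    exact mul_mem (mul_mem (C.diagonal_le_borel hh) hb) (inv_mem (C.diagonal_le_borel hh))
  have hupow : u ^ Fintype.card K ^ (D.nroots / 2) = 1 := by
    rw [← C.natCard_posUnipotent]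
    exact congrArg Subtype.val (pow_card_eq_one' (x := (⟨u, hu⟩ : ↥(D.posUnipotent K))))
  have hb'U : b' ∈ D.posUnipotent K := unip_of_pow C hbB (m := D.nroots / 2) (by
    rw [hb'def, conj_pow, hupow, mul_one, mul_inv_cancel])
  have e1 : gmap D φ m * gmap D φ u = u⁻¹ * m⁻¹ := by rw [← map_mul, hφ, _root_.mul_inv_rev]
  have e2 : m⁻¹ * (gmap D φ m)⁻¹ = u * gmap D φ b' := by
    rw [hb'def, show gmap D φ (m * u * m⁻¹) = gmap D φ m * gmap D φ u * (gmap D φ m)⁻¹ by
      rw [map_mul _ (m * u), map_mul _ m u, map_inv], e1]; group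
  have hφm : gmap D φ m = m⁻¹ := by
    have hN : ∀ g : GL D.Idx K, g ∈ D.diagonalSubgroup K → g ∈ D.monomialSubgroup K := fun g hg =>
      C.diagonal_le_monomial hg
    have h1 : m⁻¹ * (gmap D φ m)⁻¹ ∈ D.monomialSubgroup K := by
      rw [hm, map_mul, hφn]
      exact mul_mem (inv_mem (mul_mem (hN _ hh) hnN)) (inv_mem (mul_mem (hN _ hφh) hnN))
    have h3 : m⁻¹ * (gmap D φ m)⁻¹ ∈ (⊥ : Subgroup (GL D.Idx K)) := by
      rw [← C.posUnipotent_inf_monomial hM]
      exact Subgroup.mem_inf.mpr ⟨e2 ▸ mul_mem hu (map_pos_le φ (Subgroup.mem_map_of_mem _ hb'U)), h1⟩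
    have h4 : gmap D φ m * m = 1 := by
      rw [← inv_inj, _root_.mul_inv_rev, inv_one]; exact Subgroup.mem_bot.mp h3
    exact eq_inv_of_mul_eq_one_left h4
  have hφb' : gmap D φ b' = u⁻¹ := by
    rw [hφm, inv_inv, inv_mul_cancel] at e2
    exact (inv_eq_of_mul_eq_one_right e2.symm).symm
  have hinv : ∀ r < D.nroots, act D (L.map Fin.val) (act D (L.map Fin.val) r) = r := by
    intro r hr
    have h1 : C.nWordElt K (L.map Fin.val ++ L.map Fin.val) ∈ D.diagonalSubgroup K := by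
      rw [show C.nWordElt K (L.map Fin.val ++ L.map Fin.val) = (n⁻¹ * n⁻¹)⁻¹ by
        simp [Cert.nWordElt, List.prod_append, hn]]
      exact inv_mem hd
    have h3 := C.act_eq_of_mem_diagonal (fun i hi => C.fin_word_lt L i (by simpa using hi)) h1 hr
    rwa [act_append] at h3
  refine ⟨hinv, hφm, ?_⟩
  obtain ⟨k, hk⟩ : Odd (Fintype.card K ^ (D.nroots / 2)) := by
    have h3 : ringChar K ≠ 2 := fun e => h2 (by
      have h4 := CharP.cast_eq_zero K (ringChar K)
      rw [e] at h4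
      exact_mod_cast h4)
    have h4 := FiniteField.odd_card_of_char_ne_two h3
    exact (Nat.odd_iff.mpr h4).pow
  set v := u ^ (k + 1) with hv
  have hvv : v * v = u := by
    rw [hv, ← pow_add, show k + 1 + (k + 1) = (2 * k + 1) + 1 by omega, pow_succ, ← hk, hupow, one_mul]
  have e3 : m⁻¹ * gmap D φ v * m = v⁻¹ := by
    rw [hv, map_pow, ← inv_pow, ← hφb', hb'def, map_mul _ (m * u), map_mul _ m u, map_inv, hφm, inv_inv]
    simpa using (conj_pow (a := m⁻¹) (b := gmap D φ u) (i := k + 1)).symm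
  refine ⟨v, C.span_le_group _ (pow_mem hu _ : v ∈ D.posUnipotent K), hcu.pow_right _, ?_⟩
  rw [show gmap D φ v = m * v⁻¹ * m⁻¹ by rw [← e3]; group, ← hvv]
  group

variable (a : Fin D.rank → ZMod 2)
  (ht : ∀ r < D.nroots, ∀ x : K, t * C.xu r x * t⁻¹ = C.xu r (if par C a r = 0 then x else -x))
include ht

theorem commute_xu {r : ℕ} (hr : r < D.nroots) (ha : par C a r = 0) (x : K) : Commute t (C.xu r x) := by
  have h := ht r hr x
  rw [if_pos ha] at h
  exact mul_inv_eq_iff_eq_mul.mp h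

/-- A monomial element commuting with the sign element preserves parities. -/
theorem par_of_commute (L : List (Fin D.rank)) {h : GL D.Idx K} (hh : h ∈ D.diagonalSubgroup K)
    (hc : Commute t (h * C.nWordElt K (L.map Fin.val))) :
    ∀ r < D.nroots, par C a (act D (L.map Fin.val) r) = par C a r := by
  intro r hr
  obtain ⟨c, hc0, e1, -⟩ := pair_conj C L hh hr
  have hlt := C.act_lt (C.fin_word_lt L) hr
  set m := h * C.nWordElt K (L.map Fin.val)
  have h1 : t * (m * C.xu r 1 * m⁻¹) * t⁻¹ = m * (t * C.xu r 1 * t⁻¹) * m⁻¹ := by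
    calc _ = (t * m) * C.xu r 1 * (t * m)⁻¹ := by group
      _ = _ := by rw [hc.eq]; group
  rw [e1, ht _ hlt, ht r hr, e1] at h1
  have h3 := xu_inj C hlt h1
  rcases (show ∀ x : ZMod 2, x = 0 ∨ x = 1 by decide) (par C a r) with e | e <;>
    rcases (show ∀ x : ZMod 2, x = 0 ∨ x = 1 by decide) (par C a (act D (L.map Fin.val) r)) with e' | e' <;>
    rw [e, e'] at h3 ⊢
  · rw [if_pos rfl, if_neg one_ne_zero, mul_one] at h3
    exact absurd (mul_eq_zero.mp (show (2 : K) * c = 0 by linear_combination -h3)) (by simp [h2, hc0])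
  · rw [if_neg one_ne_zero, if_pos rfl, mul_one, mul_neg, mul_one] at h3
    exact absurd (mul_eq_zero.mp (show (2 : K) * c = 0 by linear_combination h3)) (by simp [h2, hc0])

variable (htT : t ∈ D.diagonalSubgroup K) (hφt : gmap D φ t = t)
include htT hφt

/-- A twisted involution centralising `t` is twisted conjugate to a monomial one. -/
theorem reduce_cell {c : GL D.Idx K} (hc : c ∈ D.group K) (hct : Commute t c) (hφc : gmap D φ c = c⁻¹) :
    ∃ (L : List (Fin D.rank)) (h : GL D.Idx K), h ∈ D.diagonalSubgroup K ∧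
      Commute t (h * C.nWordElt K (L.map Fin.val)) ∧
      (∀ r < D.nroots, act D (L.map Fin.val) (act D (L.map Fin.val) r) = r) ∧
      gmap D φ (h * C.nWordElt K (L.map Fin.val)) = (h * C.nWordElt K (L.map Fin.val))⁻¹ ∧
      ∃ x ∈ D.group K, Commute t x ∧ gmap D φ x * c * x⁻¹ = h * C.nWordElt K (L.map Fin.val) := by
  obtain ⟨L, ua, hua, h, hh, uu, huu, eg⟩ := exists_canon C hM hc
  set n := C.nWordElt K (L.map Fin.val) with hn
  have hnN : n ∈ D.monomialSubgroup K := C.nWordElt_mem (C.fin_word_lt L)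
  have h1 : t * ua * t⁻¹ ∈ D.posUnipotent K :=
    (Subgroup.mem_normalizer_iff.mp (C.posUnipotent_normalised htT) ua).mp hua
  have h3 : t * uu * t⁻¹ ∈ spanGroup D K (Inverts D K n) :=
    (Subgroup.mem_normalizer_iff.mp (C.diag_normalises (Inverts D K n) (fun x hx => hx.1.1) htT) uu).mp huu
  have hnc : n * t⁻¹ * n⁻¹ ∈ D.diagonalSubgroup K := C.monomial_conj_diagonal hnN (inv_mem htT)
  have e1 : t * ua * t⁻¹ * (t * h * (n * t⁻¹ * n⁻¹)) * n * (t * uu * t⁻¹) = ua * h * n * uu := by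
    calc _ = t * (ua * h * n * uu) * t⁻¹ := by group
      _ = t * c * t⁻¹ := by rw [← eg]
      _ = c := by rw [hct.eq, mul_inv_cancel_right]
      _ = _ := eg
  obtain ⟨r1, r2, r3⟩ := canon_unique C h1 hua (mul_mem (mul_mem htT hh) hnc) hh h3 huu e1
  have cua : Commute t ua := mul_inv_eq_iff_eq_mul.mp r1
  have cuu : Commute t uu := mul_inv_eq_iff_eq_mul.mp r3
  have cm : Commute t (h * n) := by
    have : t * (h * n) * t⁻¹ = h * n := by
      calc _ = t * h * (n * t⁻¹ * n⁻¹) * n := by group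
        _ = _ := by rw [r2]
    exact mul_inv_eq_iff_eq_mul.mp this
  have cφ : Commute t (gmap D φ ua) := by
    have := cua.map (gmap D φ)
    rwa [hφt] at this
  set x := (gmap D φ ua)⁻¹ with hx
  have hxe : gmap D φ x * c * x⁻¹ = h * n * (uu * gmap D φ ua) := by
    rw [hx, map_inv, gmap_gmap C φ hφ2 h2 hM, eg, inv_inv]; group
  have hφua : gmap D φ ua ∈ D.posUnipotent K := map_pos_le φ (Subgroup.mem_map_of_mem _ hua)
  have hu : uu * gmap D φ ua ∈ D.posUnipotent K := mul_mem (C.span_mono (fun y hy => hy.1) huu) hφua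
  have hφc' : gmap D φ (h * n * (uu * gmap D φ ua)) = (h * n * (uu * gmap D φ ua))⁻¹ := by
    rw [← hxe]; exact twist_inv C φ hφ2 h2 hM hφc x
  obtain ⟨hinv, hφm, v, hv, cv, ev⟩ := reduce C φ hφ2 h2 hM t hh hu (cuu.mul_right cφ) hφc'
  refine ⟨L, h, hh, cm, hinv, hφm, v * x,
    mul_mem hv (inv_mem (C.span_le_group _ hφua)), cv.mul_right cφ.inv_right, ?_⟩
  rw [← ev, ← hxe, map_mul]; group

variable (hA : ∀ i j : Fin D.rank, i ≠ j → D.cartan i (D.simple j) ≠ 0 →
      ∃ r < D.nroots, ∀ k : Fin D.rank, C.coef r k = (if k = i then 1 else 0) + if k = j then 1 else 0)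
  (hU : ∀ b : Fin D.rank → ZMod 2, (∀ k : Fin D.rank, ∑ j : Fin D.rank, b j * (D.cartan j (D.simple k) : ZMod 2) = 0) → b = 0)
include hA hU

/-- One reflection is removed once a norm equation can be solved. -/
theorem step {L : List (Fin D.rank)} {h : GL D.Idx K} (hh : h ∈ D.diagonalSubgroup K)
    (hcm : Commute t (h * C.nWordElt K (L.map Fin.val)))
    (hinv : ∀ r < D.nroots, act D (L.map Fin.val) (act D (L.map Fin.val) r) = r)
    (hφm : gmap D φ (h * C.nWordElt K (L.map Fin.val)) = (h * C.nWordElt K (L.map Fin.val))⁻¹)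
    (hne : ∃ r < D.nroots, act D (L.map Fin.val) r ≠ r) :
    ∃ e : K, e ≠ 0 ∧ φ e = e ∧
      (∃ r < D.nroots, h * C.nWordElt K (L.map Fin.val) * C.xu r 1 * (h * C.nWordElt K (L.map Fin.val))⁻¹ =
        C.xu (act D (L.map Fin.val) r) e) ∧ ((∃ α, e * α * φ α = 1) →
      ∃ (L₁ : List (Fin D.rank)) (h₁ : GL D.Idx K), h₁ ∈ D.diagonalSubgroup K ∧
        Commute t (h₁ * C.nWordElt K (L₁.map Fin.val)) ∧
        (∀ r < D.nroots, act D (L₁.map Fin.val) (act D (L₁.map Fin.val) r) = r) ∧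
        gmap D φ (h₁ * C.nWordElt K (L₁.map Fin.val)) = (h₁ * C.nWordElt K (L₁.map Fin.val))⁻¹ ∧
        (negSet D (L₁.map Fin.val)).card < (negSet D (L.map Fin.val)).card ∧
        ∃ x ∈ D.group K, Commute t x ∧
          gmap D φ x * (h * C.nWordElt K (L.map Fin.val)) * x⁻¹ = h₁ * C.nWordElt K (L₁.map Fin.val)) := by
  have hpar := par_of_commute C φ hφ2 h2 hM t a ht L hh hcm
  obtain ⟨r, hrp, hwr, hra⟩ := exists_inverted C hM hA hU L a hinv hne hpar
  have hr := hrp.1
  obtain ⟨c, hc0, e1, e2⟩ := pair_conj C L hh hr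
  rw [hwr] at e1 e2
  rw [C.neg_neg r hr] at e2
  have hrn := C.neg_lt r hr
  set m := h * C.nWordElt K (L.map Fin.val) with hm
  have i1 : ∀ z, m⁻¹ * C.xu r z * m = C.xu (D.neg r) (c * z) := fun z => by
    calc _ = m⁻¹ * C.xu r (c⁻¹ * (c * z)) * m := by rw [inv_mul_cancel_left₀ hc0]
      _ = _ := by rw [← e2]; group
  have i2 : ∀ z, m⁻¹ * C.xu (D.neg r) z * m = C.xu r (c⁻¹ * z) := fun z => by
    calc _ = m⁻¹ * C.xu (D.neg r) (c * (c⁻¹ * z)) * m := by rw [mul_inv_cancel_left₀ hc0]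
      _ = _ := by rw [← e1]; group
  have hφc : φ c = c := by
    have h1 := congrArg (gmap D φ) (e1 1)
    rw [map_mul, map_mul, map_inv, hφm, inv_inv, gmap_xu C C, gmap_xu C C, map_one, mul_one, i1, mul_one] at h1
    exact (xu_inj C hrn h1).symm
  refine ⟨c, hc0, hφc, ⟨r, hr, by rw [hwr]; simpa using e1 1⟩, ?_⟩
  rintro ⟨α, hα⟩
  have hα0 : φ α ≠ 0 := fun e => by rw [e, mul_zero] at hα; exact zero_ne_one hα
  set s := c * φ α with hs
  have hs0 : s ≠ 0 := mul_ne_zero hc0 hα0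
  set x := C.xu r α * C.xu (D.neg r) (-s) with hx
  have hnu : C.nu (D.neg r) s = C.xu (D.neg r) s * C.xu r (-s⁻¹) * C.xu (D.neg r) s := by
    rw [C.nu_eq, C.neg_neg r hr]
  have hsinv : s⁻¹ = α := inv_eq_of_mul_eq_one_right (by rw [hs]; linear_combination hα)
  have hφs : φ (-s) = -(c * α) := by rw [hs, map_neg, map_mul, hφc, hφ2]
  have key : gmap D φ x * m * x⁻¹ = m * C.nu (D.neg r) s * C.xu r (-α) := by
    rw [hx, map_mul, gmap_xu C C, gmap_xu C C, hnu, _root_.mul_inv_rev, C.xu_inv, C.xu_inv, _root_.neg_neg, hφs]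
    calc _ = m * (m⁻¹ * C.xu r (φ α) * m) * (m⁻¹ * C.xu (D.neg r) (-(c * α)) * m) * C.xu (D.neg r) s *
          C.xu r (-α) := by group
      _ = _ := by
        rw [i1, i2, hsinv, mul_neg, inv_mul_cancel_left₀ hc0, ← hs]
        group
  obtain ⟨P, i, hP⟩ := exists_image C (D.neg r) hrn
  obtain ⟨Lr, hmw, hact⟩ := mw_nu C hM P i hP hs0
  obtain ⟨h₁, hh₁, em⟩ : MW C (m * C.nu (D.neg r) s) (L ++ Lr) := mw_mul C ⟨h, hh, rfl⟩ hmw
  rw [em] at key
  have cxr := commute_xu C φ hφ2 h2 hM t a ht hr hra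
  have cxn := commute_xu C φ hφ2 h2 hM t a ht hrn (by rw [par_neg C a hr]; exact hra)
  have cx : Commute t x := (cxr α).mul_right (cxn (-s))
  have cφx : Commute t (gmap D φ x) := by
    have := cx.map (gmap D φ)
    rwa [hφt] at this
  have hxG : x ∈ D.group K := mul_mem (C.xu_mem_group _ _) (C.xu_mem_group _ _)
  have hφ' : gmap D φ (h₁ * C.nWordElt K ((L ++ Lr).map Fin.val) * C.xu r (-α)) =
      (h₁ * C.nWordElt K ((L ++ Lr).map Fin.val) * C.xu r (-α))⁻¹ := by
    rw [← key]; exact twist_inv C φ hφ2 h2 hM hφm x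
  obtain ⟨hinv₁, hφm₁, v, hv, cv, ev⟩ := reduce C φ hφ2 h2 hM t hh₁ (C.xu_mem_pos hrp _) (cxr _) hφ'
  refine ⟨L ++ Lr, h₁, hh₁, ?_, hinv₁, hφm₁, ?_, v * x, mul_mem hv hxG, cv.mul_right cx, ?_⟩
  · have h4 : Commute t (gmap D φ (v * x) * m * (v * x)⁻¹) := by
      have h5 := (cv.mul_right cx).map (gmap D φ)
      rw [hφt] at h5
      exact (h5.mul_right hcm).mul_right (cv.mul_right cx).inv_right
    rw [← ev, ← key]
    have e : gmap D φ v * (gmap D φ x * m * x⁻¹) * v⁻¹ = gmap D φ (v * x) * m * (v * x)⁻¹ := by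
      rw [map_mul _ v x]; group
    rw [e]
    exact h4
  · have hlt' : ∀ y ∈ L.map Fin.val, y < D.rank := C.fin_word_lt L
    have heq : negSet D ((L ++ Lr).map Fin.val) = negSet D (L.map Fin.val ++ (P ++ i :: P.reverse).map Fin.val) := by
      refine Finset.filter_congr fun y hy => ?_
      rw [List.map_append, act_append, act_append, hact y (Finset.mem_range.mp hy)]
    rw [heq]
    exact negSet_shrink C hlt' hinv hrn (by rw [C.act_neg hlt' hr, hwr]) P i hP
  · rw [← ev, ← key, map_mul _ v x]; group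

/-- With all norm equations soluble a twisted involution is twisted conjugate into the torus. -/
theorem descend (hnorm : ∀ e : K, e ≠ 0 → φ e = e → ∃ α, e * α * φ α = 1) {c : GL D.Idx K} (hc : c ∈ D.group K)
    (hct : Commute t c) (hφc : gmap D φ c = c⁻¹) :
    ∃ x ∈ D.group K, Commute t x ∧ gmap D φ x * c * x⁻¹ ∈ D.diagonalSubgroup K ∧
      gmap D φ (gmap D φ x * c * x⁻¹) = (gmap D φ x * c * x⁻¹)⁻¹ := by
  obtain ⟨L, h, hh, hcm, hinv, hφm, x, hx, cx, ex⟩ := reduce_cell C φ hφ2 h2 hM t a ht htT hφt hc hct hφc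
  clear hc hct hφc
  induction hn : (negSet D (L.map Fin.val)).card using Nat.strong_induction_on generalizing L h x with
  | _ n ih =>
  subst hn
  by_cases hne : ∃ r < D.nroots, act D (L.map Fin.val) r ≠ r
  · obtain ⟨e, he0, hφe, -, hstep⟩ := step C φ hφ2 h2 hM t a ht htT hφt hA hU hh hcm hinv hφm hne
    obtain ⟨L₁, h₁, hh₁, hcm₁, hinv₁, hφm₁, hlt, y, hy, cy, ey⟩ := hstep (hnorm e he0 hφe)
    refine ih _ hlt L₁ h₁ hh₁ hcm₁ hinv₁ hφm₁ (y * x) (mul_mem hy hx) (cy.mul_right cx) ?_ rfl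
    rw [← ey, ← ex, map_mul]; group
  · push Not at hne
    refine ⟨x, hx, cx, ?_, by rw [ex]; exact hφm⟩
    rw [ex]
    exact mul_mem hh (C.nWordElt_mem_diagonal hM hne)

end Cfsg.Agent.Chars2.InvolutionClasses
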