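import Cfsg.Agent.Chev.Orders

/-!
Involutions of a Weyl group and parities of roots.
-/

set_option autoImplicit false
set_option linter.unusedSectionVars false

universe u

namespace Cfsg.Agent.Chars2.InvolutionClasses

open Cfsg.Lie Cfsg.Agent.Chev

variable {D : ChevalleyDatum} (C : Cert.{u} D)
include C

/-- The parity of a root with respect to parities of the fundamental roots. -/
def par (a : Fin D.rank → ZMod 2) (r : ℕ) : ZMod 2 := ∑ i : Fin D.rank, (C.coef r i : ZMod 2) * a i

theorem par_simple (a : Fin D.rank → ZMod 2) (i : Fin D.rank) : par C a (D.simple i) = a i := by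
  rw [par, Finset.sum_eq_single i (fun b _ hb => by
    rw [C.coef_simple i i.isLt b b.isLt, if_neg fun e => hb (Fin.ext e), Int.cast_zero, zero_mul]) (by simp),
    C.coef_simple i i.isLt i i.isLt, if_pos rfl, Int.cast_one, one_mul]

theorem par_neg (a : Fin D.rank → ZMod 2) {r : ℕ} (hr : r < D.nroots) : par C a (D.neg r) = par C a r := by
  simp only [par, C.coef_neg r hr _ (Fin.isLt _), Int.cast_neg, ZMod.neg_eq_self_mod_two]

theorem par_act (a : Fin D.rank → ZMod 2) {L : List ℕ} (hL : ∀ i ∈ L, i < D.rank) {r : ℕ} (hr : r < D.nroots) :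
    par C a (act D L r) = ∑ j : Fin D.rank, (C.coef r j : ZMod 2) * par C a (act D L (D.simple j)) := by
  simp only [par, C.act_coef hL hr _ (Fin.isLt _), Finset.sum_range, Int.cast_sum, Int.cast_mul, Finset.sum_mul,
    Finset.mul_sum]
  rw [Finset.sum_comm]
  exact Finset.sum_congr rfl fun _ _ => Finset.sum_congr rfl fun _ _ => mul_assoc _ _ _

theorem par_zero (r : ℕ) : par C (0 : Fin D.rank → ZMod 2) r = 0 := by simp [par]

/-- The positive roots that a word makes negative. -/
def invN (D : ChevalleyDatum) (L : List ℕ) : Finset ℕ :=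
  (Finset.range D.nroots).filter fun r => D.IsPosRoot r ∧ D.IsNegRoot (act D L r)

/-- The roots that a word negates. -/
def negSet (D : ChevalleyDatum) (L : List ℕ) : Finset ℕ :=
  (Finset.range D.nroots).filter fun s => act D L s = D.neg s

theorem mem_invN {L : List ℕ} {r : ℕ} : r ∈ invN D L ↔ D.IsPosRoot r ∧ D.IsNegRoot (act D L r) := by
  simp only [invN, Finset.mem_filter, Finset.mem_range]
  exact ⟨fun h => h.2, fun h => ⟨h.1.1, h⟩⟩

/-- A fundamental root sent to the negative of itself, or a shorter conjugate. -/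
theorem card_invN_conj {L : List ℕ} (hL : ∀ i ∈ L, i < D.rank) {i : ℕ} (hi : i < D.rank)
    (hinv : ∀ r < D.nroots, act D L (act D L r) = r) (hneg : D.IsNegRoot (act D L (D.simple i)))
    (hne : act D L (D.simple i) ≠ D.neg (D.simple i)) :
    (invN D (i :: (L ++ [i]))).card < (invN D L).card := by
  have hsl := C.simple_lt i hi
  have e1 : ∀ r, act D (L ++ [i]) r = act D L (D.reflectRoot i r) := fun r => by
    rw [act_append]; rfl
  have hsi : D.simple i ∈ invN D L := mem_invN C |>.mpr ⟨C.pos_simple hi, hneg⟩
  have hβp := C.posRoot_neg hneg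
  set β := D.neg (act D L (D.simple i)) with hβ
  have hβne : β ≠ D.simple i := fun e => hne (by
    have h := congrArg D.neg e
    rwa [hβ, C.neg_neg _ (C.act_lt hL hsl)] at h)
  have h1 : invN D (i :: (L ++ [i])) ⊆ invN D (L ++ [i]) := by
    intro r hr
    rw [mem_invN C] at hr ⊢
    refine ⟨hr.1, ?_⟩
    have hlt : act D (L ++ [i]) r < D.nroots := by
      rw [e1]; exact C.act_lt hL (C.refl_lt i hi r hr.1.1)
    rcases C.posRoot_or_negRoot hlt with hp | hn
    · exfalso
      by_cases he : act D (L ++ [i]) r = D.simple i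
      · rw [e1] at he
        have h2 : D.reflectRoot i r = act D L (D.simple i) := by rw [← he, hinv _ (C.refl_lt i hi r hr.1.1)]
        have h3 : r = D.reflectRoot i (act D L (D.simple i)) := by rw [← h2, C.refl_refl hi hr.1.1]
        have h4 := C.refl_negRoot hi hneg hne
        rw [← h3] at h4
        exact C.not_pos_and_neg hr.1 h4
      · have := hr.2
        rw [act_cons] at this
        exact C.not_pos_and_neg (C.pos_refl hi hp he) this
    · exact hn
  have h2 : (invN D (L ++ [i])).card ≤ ((invN D L).erase (D.simple i)).card := by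
    refine Finset.card_le_card_of_injOn (D.reflectRoot i) (fun r hr => ?_) (fun r hr r' hr' e => ?_)
    · obtain ⟨hp, hn⟩ := (mem_invN C).mp (Finset.mem_coe.mp hr)
      rw [e1] at hn
      have hrne : r ≠ D.simple i := by
        rintro rfl
        rw [C.refl_simple hi, C.act_neg hL hsl] at hn
        exact C.not_pos_and_neg hβp hn
      refine Finset.mem_coe.mpr (Finset.mem_erase.mpr ⟨fun e => ?_, (mem_invN C).mpr ⟨C.pos_refl hi hp hrne, hn⟩⟩)
      have := congrArg (D.reflectRoot i) e
      rw [C.refl_refl hi hp.1, C.refl_simple hi] at this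
      exact C.not_pos_and_neg hp (this ▸ C.negRoot_neg (C.pos_simple hi))
    · exact C.refl_inj hi ((mem_invN C).mp (Finset.mem_coe.mp hr)).1.1
        ((mem_invN C).mp (Finset.mem_coe.mp hr')).1.1 e
  calc (invN D (i :: (L ++ [i]))).card ≤ _ := Finset.card_le_card h1
    _ ≤ _ := h2
    _ < _ := Finset.card_erase_lt_of_mem hsi

/-- A product of commuting fundamental reflections on a fundamental root. -/
theorem coef_act_orth : ∀ (l : List (Fin D.rank)), l.Nodup →
    (∀ i ∈ l, ∀ j ∈ l, i ≠ j → D.cartan i (D.simple j) = 0) → ∀ (k x : Fin D.rank),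
      C.coef (act D (l.map Fin.val) (D.simple k)) x =
        (if x = k then 1 else 0) - if x ∈ l then D.cartan x (D.simple k) else 0 := by
  intro l
  induction l with
  | nil =>
    intro _ _ k x
    rw [List.map_nil, act_nil, C.coef_simple k k.isLt x x.isLt]
    simp [Fin.ext_iff]
  | cons a l ih =>
    intro hnd horth k x
    obtain ⟨hal, hnd'⟩ := List.nodup_cons.mp hnd
    have horth' : ∀ i ∈ l, ∀ j ∈ l, i ≠ j → D.cartan i (D.simple j) = 0 := fun i hi j hj =>
      horth i (List.mem_cons_of_mem _ hi) j (List.mem_cons_of_mem _ hj)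
    have ih' := ih hnd' horth'
    have hlt : act D (l.map Fin.val) (D.simple k) < D.nroots := C.act_lt (C.fin_word_lt l) (C.simple_lt k k.isLt)
    have hc : D.cartan a (act D (l.map Fin.val) (D.simple k)) = D.cartan a (D.simple k) := by
      rw [C.cartan_linear a a.isLt _ hlt, Finset.sum_range]
      simp only [ih', sub_mul, ite_mul, one_mul, zero_mul, Finset.sum_sub_distrib, Finset.sum_ite_eq', Finset.mem_univ,
        if_true]
      rw [Finset.sum_eq_zero (s := (Finset.univ : Finset (Fin D.rank))) (f := fun m : Fin D.rank =>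
        if m ∈ l then D.cartan m (D.simple k) * D.cartan a (D.simple m) else 0) (fun m _ => by
          split_ifs with hm
          · rw [horth a List.mem_cons_self m (List.mem_cons_of_mem _ hm) (fun e => hal (e ▸ hm)), mul_zero]
          · rfl), sub_zero]
    rw [List.map_cons, act_cons, C.coef_refl a a.isLt _ hlt x x.isLt, hc, ih']
    by_cases hxa : x = a
    · subst hxa; simp [hal]
    · simp [hxa, Fin.ext_iff.not.mp hxa]

/-- An involution fixing a parity negates a positive root of even parity. -/
theorem exists_inverted {M : CoxeterMatrix (Fin D.rank)} (hM : CoxOK D M)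
    (hA : ∀ i j : Fin D.rank, i ≠ j → D.cartan i (D.simple j) ≠ 0 →
      ∃ r < D.nroots, ∀ k : Fin D.rank, C.coef r k = (if k = i then 1 else 0) + if k = j then 1 else 0)
    (hU : ∀ b : Fin D.rank → ZMod 2, (∀ k : Fin D.rank, ∑ j : Fin D.rank, b j * (D.cartan j (D.simple k) : ZMod 2) = 0) → b = 0)
    (L : List (Fin D.rank)) (a : Fin D.rank → ZMod 2)
    (hinv : ∀ r < D.nroots, act D (L.map Fin.val) (act D (L.map Fin.val) r) = r)
    (hne : ∃ r < D.nroots, act D (L.map Fin.val) r ≠ r)
    (hfix : ∀ r < D.nroots, par C a (act D (L.map Fin.val) r) = par C a r) :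
    ∃ r, D.IsPosRoot r ∧ act D (L.map Fin.val) r = D.neg r ∧ par C a r = 0 := by
  classical
  induction hn : (invN D (L.map Fin.val)).card using Nat.strong_induction_on generalizing L a with
  | _ n ih =>
  subst hn
  set w := act D (L.map Fin.val) with hw
  have hL := C.fin_word_lt L
  by_cases hdes : ∃ i : Fin D.rank, D.IsNegRoot (w (D.simple i)) ∧ w (D.simple i) ≠ D.neg (D.simple i)
  · obtain ⟨i, hneg, hnei⟩ := hdes
    let L' : List (Fin D.rank) := i :: (L ++ [i])
    have hL' : L'.map Fin.val = (i : ℕ) :: (L.map Fin.val ++ [(i : ℕ)]) := by simp [L']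
    have hact : ∀ r, act D (L'.map Fin.val) r = D.reflectRoot i (w (D.reflectRoot i r)) := fun r => by
      rw [hL', act_cons, act_append]; rfl
    let a' : Fin D.rank → ZMod 2 := fun j => par C a (D.reflectRoot i (D.simple j))
    have hpar : ∀ r < D.nroots, par C a' r = par C a (D.reflectRoot i r) := fun r hr => by
      have := par_act C a (L := [(i : ℕ)]) (by simp [i.isLt]) hr
      rw [show act D [(i : ℕ)] r = D.reflectRoot i r from rfl] at this
      rw [this]
      rfl
    have hlt : ∀ r < D.nroots, w (D.reflectRoot i r) < D.nroots := fun r hr => C.act_lt hL (C.refl_lt i i.isLt r hr)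
    obtain ⟨r, hrp, hr, hra⟩ := ih _ (by rw [hL']; exact card_invN_conj C hL i.isLt hinv hneg hnei) L' a'
      (fun r hr => by
        rw [hact, hact, C.refl_refl i.isLt (hlt r hr), hinv _ (C.refl_lt i i.isLt r hr), C.refl_refl i.isLt hr])
      (by
        obtain ⟨r, hr, hrne⟩ := hne
        refine ⟨D.reflectRoot i r, C.refl_lt i i.isLt r hr, fun e => hrne ?_⟩
        rw [hact, C.refl_refl i.isLt hr] at e
        exact C.refl_inj i.isLt (C.act_lt hL hr) hr e)
      (fun r hr => by
        rw [hact, hpar _ (C.refl_lt i i.isLt _ (hlt r hr)), C.refl_refl i.isLt (hlt r hr),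
          hfix _ (C.refl_lt i i.isLt r hr), hpar r hr]) rfl
    have hr' : r ≠ D.simple i := by
      rintro rfl
      rw [hact, C.refl_simple i.isLt, hw] at hr
      have h1 := congrArg (D.reflectRoot i) hr
      rw [C.refl_refl i.isLt (C.act_lt hL (C.neg_lt _ (C.simple_lt i i.isLt))),
        C.act_neg hL (C.simple_lt i i.isLt), C.refl_neg i.isLt (C.simple_lt i i.isLt), C.refl_simple i.isLt,
        C.neg_neg _ (C.simple_lt i i.isLt)] at h1
      refine hnei ?_
      have h2 := congrArg D.neg h1
      rw [C.neg_neg _ (C.act_lt hL (C.simple_lt i i.isLt))] at h2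
      exact h2
    refine ⟨D.reflectRoot i r, C.pos_refl i.isLt hrp hr', ?_, by rw [← hpar r hrp.1]; exact hra⟩
    rw [hact] at hr
    have h1 := congrArg (D.reflectRoot i) hr
    rw [C.refl_refl i.isLt (hlt r hrp.1), C.refl_neg i.isLt hrp.1] at h1
    exact h1
  push Not at hdes
  set J := (Finset.univ.filter fun i : Fin D.rank => D.IsNegRoot (w (D.simple i))).toList with hJ
  have hmemJ : ∀ i, i ∈ J ↔ D.IsNegRoot (w (D.simple i)) := fun i => by simp [hJ]
  by_cases h0 : ∃ i ∈ J, a i = 0
  · obtain ⟨i, hi, hai⟩ := h0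
    exact ⟨D.simple i, C.pos_simple i.isLt, hdes i ((hmemJ i).mp hi), by rw [par_simple C]; exact hai⟩
  push Not at h0
  have ha1 : ∀ i ∈ J, a i = 1 := fun i hi => by
    rcases (show ∀ x : ZMod 2, x = 0 ∨ x = 1 by decide) (a i) with h | h
    · exact absurd h (h0 i hi)
    · exact h
  by_cases hadj : ∃ i ∈ J, ∃ j ∈ J, i ≠ j ∧ D.cartan i (D.simple j) ≠ 0
  · obtain ⟨i, hi, j, hj, hij, hc⟩ := hadj
    obtain ⟨r, hr, hcr⟩ := hA i j hij hc
    refine ⟨r, (C.pos_iff r hr).mpr fun k hk => ?_, ?_, ?_⟩
    · rw [hcr ⟨k, hk⟩]; positivity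
    · refine C.coef_inj _ (C.act_lt hL hr) _ (C.neg_lt r hr) fun k hk => ?_
      rw [C.act_coef hL hr k hk, C.coef_neg r hr k hk, Finset.sum_range]
      simp only [hcr, add_mul, ite_mul, one_mul, zero_mul, Finset.sum_add_distrib, Finset.sum_ite_eq', Finset.mem_univ,
        if_true]
      rw [show act D (L.map Fin.val) (D.simple i) = D.neg (D.simple i) from hdes i ((hmemJ i).mp hi),
        show act D (L.map Fin.val) (D.simple j) = D.neg (D.simple j) from hdes j ((hmemJ j).mp hj),
        C.coef_neg _ (C.simple_lt i i.isLt) k hk, C.coef_neg _ (C.simple_lt j j.isLt) k hk,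
        C.coef_simple i i.isLt k hk, C.coef_simple j j.isLt k hk, hcr ⟨k, hk⟩]
      simp only [Fin.ext_iff]
      ring
    · simp only [par, hcr, Int.cast_add, Int.cast_ite, Int.cast_one, Int.cast_zero, add_mul, ite_mul, one_mul,
        zero_mul, Finset.sum_add_distrib, Finset.sum_ite_eq', Finset.mem_univ, if_true, ha1 i hi, ha1 j hj]
      decide
  push Not at hadj
  exfalso
  have hnd : J.Nodup := Finset.nodup_toList _
  -- after multiplying by the commuting reflections every fundamental root stays positive
  let w' : ℕ → ℕ := fun r => w (act D (J.map Fin.val) r)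
  have hJlt := C.fin_word_lt J
  have hcoef : ∀ k x : Fin D.rank, C.coef (w' (D.simple k)) x =
      C.coef (w (D.simple k)) x + if x ∈ J then D.cartan x (D.simple k) else 0 := by
    intro k x
    show C.coef (act D _ (act D _ _)) x = _
    rw [C.act_coef hL (C.act_lt hJlt (C.simple_lt k k.isLt)) x x.isLt, Finset.sum_range]
    simp only [coef_act_orth C J hnd hadj, sub_mul, ite_mul, one_mul, zero_mul, Finset.sum_sub_distrib,
      Finset.sum_ite_eq', Finset.mem_univ, if_true]
    rw [sub_eq_add_neg]
    congr 1
    rw [← Finset.sum_neg_distrib, Finset.sum_congr rfl fun m _ => show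
      -(if m ∈ J then D.cartan m (D.simple k) * C.coef (act D (L.map Fin.val) (D.simple m)) x else 0) =
        if m ∈ J then (if x = m then D.cartan m (D.simple k) else 0) else 0 by
      split_ifs with hm hxm
      · subst hxm
        rw [show act D (L.map Fin.val) (D.simple x) = D.neg (D.simple x) from hdes x ((hmemJ x).mp hm),
          C.coef_neg _ (C.simple_lt x x.isLt) x x.isLt, C.coef_simple x x.isLt x x.isLt, if_pos rfl]
        ring
      · rw [show act D (L.map Fin.val) (D.simple m) = D.neg (D.simple m) from hdes m ((hmemJ m).mp hm),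
          C.coef_neg _ (C.simple_lt m m.isLt) x x.isLt, C.coef_simple m m.isLt x x.isLt,
          if_neg fun e => hxm (Fin.ext e)]
        ring
      · simp]
    rw [Finset.sum_eq_single x (fun m _ hm => by simp [Ne.symm hm]) (by simp)]
    simp
  have hpos : ∀ k : Fin D.rank, D.IsPosRoot (w' (D.simple k)) := by
    intro k
    have hlt : w' (D.simple k) < D.nroots := C.act_lt hL (C.act_lt hJlt (C.simple_lt k k.isLt))
    rcases C.posRoot_or_negRoot hlt with h | hneg
    · exact h
    exfalso
    have hwk : w (D.simple k) < D.nroots := C.act_lt hL (C.simple_lt k k.isLt)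
    by_cases hk : k ∈ J
    · -- `w'` sends the root to itself
      have h1 := hcoef k k
      rw [if_pos hk, C.cartan_diag k k.isLt, hdes k ((hmemJ k).mp hk), C.coef_neg _ (C.simple_lt k k.isLt) k k.isLt,
        C.coef_simple k k.isLt k k.isLt, if_pos rfl] at h1
      have := (C.negRoot_iff _ hlt).mp hneg k k.isLt
      omega
    have hwp : D.IsPosRoot (w (D.simple k)) :=
      (C.posRoot_or_negRoot hwk).resolve_right fun h => hk ((hmemJ k).mpr h)
    have hsupp : ∀ x : Fin D.rank, x ∉ J → C.coef (w (D.simple k)) x = 0 := by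
      intro x hx
      have h1 := hcoef k x
      rw [if_neg hx, add_zero] at h1
      have h2 := (C.negRoot_iff _ hlt).mp hneg x x.isLt
      have h3 := (C.pos_iff _ hwk).mp hwp x x.isLt
      omega
    have h4 := C.act_coef hL hwk k k.isLt
    rw [hw] at hinv
    rw [hinv _ (C.simple_lt k k.isLt), C.coef_simple k k.isLt k k.isLt, if_pos rfl, Finset.sum_range] at h4
    rw [Finset.sum_eq_zero fun m _ => by
      by_cases hm : m ∈ J
      · rw [show act D (L.map Fin.val) (D.simple m) = D.neg (D.simple m) from hdes m ((hmemJ m).mp hm),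
          C.coef_neg _ (C.simple_lt m m.isLt) k k.isLt, C.coef_simple m m.isLt k k.isLt,
          if_neg fun (e : (k : ℕ) = m) => hk (by rwa [Fin.ext e]), neg_zero, mul_zero]
      · rw [hsupp m hm, zero_mul]] at h4
    exact one_ne_zero h4
  have hid : ∀ r < D.nroots, act D ((L ++ J).map Fin.val) r = r := by
    have hmem : ((L ++ J).map C.reflPerm).prod ∈ C.WSub (List.range D.rank) :=
      Subgroup.list_prod_mem _ fun x hx => by
        obtain ⟨i, -, rfl⟩ := List.mem_map.mp hx
        exact C.reflPerm_mem (List.mem_range.mpr i.isLt)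
    have h1 : permInv D ((L ++ J).map C.reflPerm).prod = ∅ := by
      rw [Finset.eq_empty_iff_forall_notMem]
      intro r hr
      obtain ⟨hp, hn⟩ := mem_permInv.mp hr
      rw [C.reflPerm_prod, List.map_append, act_append] at hn
      refine C.not_pos_and_neg ((C.pos_iff _ hn.1).mpr fun x hx => ?_) hn
      rw [← act_append, C.act_coef (fun i hi => ?_) r.isLt x hx]
      · refine Finset.sum_nonneg fun j hj => mul_nonneg ((C.pos_iff r r.isLt).mp hp j (Finset.mem_range.mp hj)) ?_
        rw [act_append]
        exact (C.pos_iff _ (hpos ⟨j, Finset.mem_range.mp hj⟩).1).mp (hpos ⟨j, Finset.mem_range.mp hj⟩) x hx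
      · rcases List.mem_append.mp hi with h | h
        exacts [hL i h, hJlt i h]
    intro r hr
    have h2 := congrArg Fin.val (Equiv.congr_fun (C.eq_one_of_permInv_empty hM hmem h1) ⟨r, hr⟩)
    rwa [C.reflPerm_prod, Equiv.Perm.one_apply] at h2
  have hb := hU (fun x => if x ∈ J then 1 else 0) fun k => by
    have h1 : w' (D.simple k) = D.simple k := by
      have := hid _ (C.simple_lt k k.isLt)
      rwa [List.map_append, act_append] at this
    have h2 := hfix _ (C.simple_lt k k.isLt)
    simp only [par] at h2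
    have h3 : ∀ x : Fin D.rank, C.coef (act D (L.map Fin.val) (D.simple k)) x =
        C.coef (D.simple k) x - if x ∈ J then D.cartan x (D.simple k) else 0 := fun x => by
      rw [← hw, eq_sub_iff_add_eq, ← hcoef k x, h1]
    rw [hw] at h2
    simp only [h3, Int.cast_sub, sub_mul, Finset.sum_sub_distrib, sub_eq_self] at h2
    refine Eq.trans ?_ h2
    exact Finset.sum_congr rfl fun x _ => by
      split_ifs with hx
      · rw [ha1 x hx, mul_one, one_mul]
      · simp
  obtain ⟨r, hr, hrne⟩ := hne
  have hJe : J = [] := List.eq_nil_iff_forall_not_mem.mpr fun x hx => by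
    have := congrFun hb x
    simp [hx] at this
  have := hid r hr
  rw [hJe, List.append_nil] at this
  exact hrne this

/-- Every root is an image of a fundamental root. -/
theorem exists_image : ∀ r < D.nroots, ∃ (P : List (Fin D.rank)) (i : Fin D.rank),
    act D (P.map Fin.val) (D.simple i) = r := by
  refine C.induction_simple _ (fun i hi => ⟨[], ⟨i, hi⟩, rfl⟩) ?_
  intro i hi r _ ⟨P, j, e⟩
  exact ⟨⟨i, hi⟩ :: P, j, by rw [List.map_cons, act_cons, e]⟩

/-- The word of the reflection in a root moves coefficient vectors along that root. -/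
theorem coef_act_reflWord (P : List (Fin D.rank)) (i : Fin D.rank) {s : ℕ} (hs : s < D.nroots) :
    ∃ m : ℤ, ∀ k < D.rank, C.coef (act D ((P ++ i :: P.reverse).map Fin.val) s) k =
      C.coef s k - m * C.coef (act D (P.map Fin.val) (D.simple i)) k := by
  refine ⟨D.cartan i (act D (P.reverse.map Fin.val) s), fun k hk => ?_⟩
  have hlt : act D (P.reverse.map Fin.val) s < D.nroots := C.act_lt (C.fin_word_lt _) hs
  have e0 : C.coef s k = C.coef (act D (P.map Fin.val) (act D (P.reverse.map Fin.val) s)) k := by
    rw [List.map_reverse, act_reverse_right C (C.fin_word_lt P) hs]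
  rw [List.map_append, List.map_cons, act_append, act_cons,
    C.act_coef (C.fin_word_lt P) (C.refl_lt i i.isLt _ hlt) k hk, e0, C.act_coef (C.fin_word_lt P) hlt k hk,
    Finset.sum_range, Finset.sum_range]
  simp only [C.coef_refl i i.isLt _ hlt _ (Fin.isLt _), sub_mul, Finset.sum_sub_distrib, ← Fin.ext_iff, ite_mul,
    zero_mul, Finset.sum_ite_eq', Finset.mem_univ, if_true]

/-- Multiplying an involution by the reflection in a negated root shrinks the negated set. -/
theorem negSet_shrink {L : List ℕ} (hL : ∀ i ∈ L, i < D.rank) (hinv : ∀ r < D.nroots, act D L (act D L r) = r)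
    {r : ℕ} (hr : r < D.nroots) (hLr : act D L r = D.neg r) (P : List (Fin D.rank)) (i : Fin D.rank)
    (hP : act D (P.map Fin.val) (D.simple i) = r) :
    (negSet D (L ++ (P ++ i :: P.reverse).map Fin.val)).card < (negSet D L).card := by
  classical
  set M := (P ++ i :: P.reverse).map Fin.val with hM
  have hMlt : ∀ x ∈ M, x < D.rank := C.fin_word_lt _
  refine Finset.card_lt_card ((Finset.ssubset_iff_of_subset ?_).mpr ⟨r, ?_, ?_⟩)
  · intro s hs
    simp only [negSet, Finset.mem_filter, Finset.mem_range] at hs ⊢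
    obtain ⟨hs, he⟩ := hs
    rw [act_append] at he
    refine ⟨hs, ?_⟩
    obtain ⟨m, hm⟩ := coef_act_reflWord C P i hs
    have h1 : ∀ k < D.rank, C.coef (act D L s) k = - C.coef s k - m * C.coef r k := by
      intro k hk
      have h2 := congrArg (fun x => C.coef x k) he
      rw [C.act_coef hL (C.act_lt hMlt hs) k hk, C.coef_neg s hs k hk,
        Finset.sum_congr rfl fun j hj => by rw [hm j (Finset.mem_range.mp hj), hP, sub_mul, mul_assoc],
        Finset.sum_sub_distrib, ← Finset.mul_sum, ← C.act_coef hL hs k hk, ← C.act_coef hL hr k hk, hLr,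
        C.coef_neg r hr k hk] at h2
      linarith
    obtain ⟨k0, hk0, hk0r⟩ := C.exists_coef_ne hr
    have h3 := C.act_coef hL (C.act_lt hL hs) k0 hk0
    rw [hinv s hs, Finset.sum_congr rfl fun j hj => by
      rw [h1 j (Finset.mem_range.mp hj), sub_mul, neg_mul, mul_assoc], Finset.sum_sub_distrib, Finset.sum_neg_distrib,
      ← Finset.mul_sum, ← C.act_coef hL hs k0 hk0, ← C.act_coef hL hr k0 hk0, hLr, C.coef_neg r hr k0 hk0,
      h1 k0 hk0] at h3
    have hm0 : m = 0 := by
      have : 2 * m * C.coef r k0 = 0 := by linarith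
      rcases mul_eq_zero.mp this with h | h
      · linarith
      · exact absurd h hk0r
    refine C.coef_inj _ (C.act_lt hL hs) _ (C.neg_lt s hs) fun k hk => ?_
    rw [h1 k hk, C.coef_neg s hs k hk, hm0, zero_mul, sub_zero]
  · simp [negSet, hr, hLr]
  · simp only [negSet, Finset.mem_filter, not_and]
    intro _ e
    have h1 : act D M r = D.neg r := by
      rw [hM, List.map_append, List.map_cons, act_append, act_cons, List.map_reverse, ← hP,
        act_reverse_left C (C.fin_word_lt P) (C.simple_lt i i.isLt), C.refl_simple i.isLt,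
        C.act_neg (C.fin_word_lt P) (C.simple_lt i i.isLt)]
    rw [act_append, h1, C.act_neg hL hr, hLr, C.neg_neg r hr] at e
    exact C.neg_ne r hr e.symm

end Cfsg.Agent.Chars2.InvolutionClasses
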